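import Mathlib

/-!
# The Moebius transform of an additive invariant over invariant subspaces
-/

set_option autoImplicit false

open Polynomial Module

namespace Cfsg.Agent.H65.Cu

variable {F : Type*} [Field F] {V V' : Type*} [AddCommGroup V] [Module F V] [AddCommGroup V']
  [Module F V']

/-- `W` is invariant under `x`. -/
def Iv (x : End F V) (W : Submodule F V) : Prop := ∀ v ∈ W, x v ∈ W

theorem iv_top (x : End F V) : Iv x ⊤ := fun _ _ => trivial

theorem iv_bot (x : End F V) : Iv x ⊥ := fun v hv => by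
  rw [Submodule.mem_bot] at hv ⊢; rw [hv, map_zero]

theorem Iv.inf {x : End F V} {W U : Submodule F V} (h : Iv x W) (h' : Iv x U) : Iv x (W ⊓ U) :=
  fun v hv => ⟨h v hv.1, h' v hv.2⟩

theorem Iv.le_comap {x : End F V} {W : Submodule F V} (h : Iv x W) : W ≤ W.comap x := h

/-- the induced endomorphism of the quotient -/
def qE (x : End F V) {W : Submodule F V} (h : Iv x W) : End F (V ⧸ W) := W.mapQ W x h.le_comap

theorem qE_mk (x : End F V) {W : Submodule F V} (h : Iv x W) (v : V) :
    qE x h (W.mkQ v) = W.mkQ (x v) := rfl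

open Module.Basis in
theorem charpoly_eq_mul [FiniteDimensional F V] (e : End F V) {W : Submodule F V} (he : Iv e W) :
    e.charpoly = (e.restrict he).charpoly * (qE e he).charpoly := by
  let m := Module.Free.ChooseBasisIndex F W
  let bW : Basis m F W := Module.Free.chooseBasis F W
  let n := Module.Free.ChooseBasisIndex F (V ⧸ W)
  let bQ : Basis n F (V ⧸ W) := Module.Free.chooseBasis F (V ⧸ W)
  let b := sumQuot bW bQ
  let A : Matrix m m F := LinearMap.toMatrix bW bW (e.restrict he)
  let B : Matrix m n F := Matrix.of fun i l ↦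
    ((sumQuot bW bQ).repr (e ((sumQuot bW bQ) (Sum.inr l)))) (Sum.inl i)
  let D : Matrix n n F := LinearMap.toMatrix bQ bQ (qE e he)
  suffices LinearMap.toMatrix b b e = Matrix.fromBlocks A B 0 D by
    rw [← LinearMap.charpoly_toMatrix e b, this, ← LinearMap.charpoly_toMatrix _ bW,
      ← LinearMap.charpoly_toMatrix _ bQ, Matrix.charpoly_fromBlocks_zero₂₁]
  ext u v
  cases u with
  | inl i =>
    cases v with
    | inl k =>
      simp only [b, sumQuot_inl, Matrix.fromBlocks_apply₁₁, A, LinearMap.toMatrix_apply]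
      apply sumQuot_repr_inl_of_mem
    | inr l => simp [b, LinearMap.toMatrix_apply, Matrix.fromBlocks_apply₁₂, B]
  | inr j =>
    cases v with
    | inl k =>
      suffices W.mkQ (e (bW k)) = 0 by simp [LinearMap.toMatrix_apply, b, this]
      rw [← LinearMap.mem_ker, Submodule.ker_mkQ]
      exact he _ (Submodule.coe_mem (bW k))
    | inr l =>
      simp only [LinearMap.toMatrix_apply, sumQuot_repr_inr,
        Matrix.fromBlocks_apply₂₂, b, D]
      rw [← sumQuot_inr bW bQ l, qE, W.mapQ_apply]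
      simp

instance finQ [Finite V] (W : Submodule F V) : Finite (V ⧸ W) :=
  Finite.of_surjective W.mkQ W.mkQ_surjective

theorem iv_map {x : End F V} {x' : End F V'} {f : V →ₗ[F] V'} {W : Submodule F V} (h : Iv x W)
    (hf : ∀ w ∈ W, f (x w) = x' (f w)) : Iv x' (W.map f) := by
  rintro _ ⟨w, hw, rfl⟩
  exact ⟨x w, h w hw, hf w hw⟩

variable [Finite V] [Finite V']

open Classical in
/-- the characteristic polynomial of the restriction to an invariant subspace -/
noncomputable def cp (x : End F V) (W : Submodule F V) : F[X] :=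
  if h : Iv x W then (x.restrict h).charpoly else 1

theorem cp_eq {x : End F V} {W : Submodule F V} (h : Iv x W) :
    cp x W = (x.restrict h).charpoly := dif_pos h

theorem cp_monic (x : End F V) (W : Submodule F V) : (cp x W).Monic := by
  unfold cp; split_ifs
  · exact LinearMap.charpoly_monic _
  · exact monic_one

theorem cp_map {x : End F V} {x' : End F V'} {f : V →ₗ[F] V'} {W : Submodule F V} (h : Iv x W)
    (hd : Disjoint W (LinearMap.ker f)) (hf : ∀ w ∈ W, f (x w) = x' (f w)) :
    cp x' (W.map f) = cp x W := by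
  rw [cp_eq h, cp_eq (iv_map h hf)]
  have hinj : Function.Injective (f.submoduleMap W) := by
    rw [injective_iff_map_eq_zero]
    intro a ha
    have : f a = 0 := congrArg Subtype.val ha
    exact Subtype.ext ((Submodule.disjoint_def.1 hd) a a.2 this)
  let e : W ≃ₗ[F] W.map f := LinearEquiv.ofBijective _ ⟨hinj, f.submoduleMap_surjective W⟩
  rw [← e.charpoly_conj]
  congr 1
  refine LinearMap.ext fun w => ?_
  obtain ⟨w, rfl⟩ := e.surjective w
  rw [LinearEquiv.conj_apply_apply, e.symm_apply_apply]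
  exact Subtype.ext (hf w w.2).symm

theorem cp_top (x : End F V) : cp x ⊤ = x.charpoly := by
  rw [cp_eq (iv_top x), ← (Submodule.topEquiv (R := F) (M := V)).charpoly_conj]
  congr 1

theorem cp_bot (x : End F V) : cp x ⊥ = 1 := by
  rw [cp_eq (iv_bot x)]
  refine (LinearMap.charpoly_monic _).natDegree_eq_zero.1 ?_
  rw [LinearMap.charpoly_natDegree, finrank_bot]

theorem cp_natDegree {x : End F V} {W : Submodule F V} (h : Iv x W) :
    (cp x W).natDegree = finrank F W := by
  rw [cp_eq h, LinearMap.charpoly_natDegree]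

theorem cp_restrict {x : End F V} {W : Submodule F V} (h : Iv x W) :
    cp x W = cp (x.restrict h) ⊤ := by rw [cp_top, cp_eq h]

theorem cp_top_eq_mul {x : End F V} {W : Submodule F V} (h : Iv x W) :
    cp x ⊤ = cp x W * cp (qE x h) ⊤ := by
  rw [cp_top, cp_top, cp_eq h, charpoly_eq_mul x h]

/-- the invariant subspaces of `W` -/
noncomputable def ivs (x : End F V) (W : Submodule F V) : Finset (Submodule F V) :=
  (Set.toFinite {U | U ≤ W ∧ Iv x U}).toFinset

theorem mem_ivs {x : End F V} {W U : Submodule F V} : U ∈ ivs x W ↔ U ≤ W ∧ Iv x U := by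
  simp [ivs]

/-- the proper invariant subspaces of `W` -/
noncomputable def ivp (x : End F V) (W : Submodule F V) : Finset (Submodule F V) :=
  (Set.toFinite {U | U < W ∧ Iv x U}).toFinset

theorem mem_ivp {x : End F V} {W U : Submodule F V} : U ∈ ivp x W ↔ U < W ∧ Iv x U := by
  simp [ivp]

theorem sum_ivs {M : Type*} [AddCommMonoid M] {x : End F V} {W : Submodule F V} (h : Iv x W)
    (g : Submodule F V → M) : ∑ U ∈ ivs x W, g U = g W + ∑ U ∈ ivp x W, g U := by
  classical
  have : ivs x W = insert W (ivp x W) := by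
    ext U
    rw [Finset.mem_insert, mem_ivs, mem_ivp, le_iff_eq_or_lt]
    constructor
    · rintro ⟨h1 | h1, h2⟩
      exacts [Or.inl h1, Or.inr ⟨h1, h2⟩]
    · rintro (rfl | ⟨h1, h2⟩)
      exacts [⟨Or.inl rfl, h⟩, ⟨Or.inr h1, h2⟩]
  rw [this, Finset.sum_insert (by simp [mem_ivp])]

/-- the Moebius transform -/
noncomputable def sF (β : F[X] → ℂ) (x : End F V) (W : Submodule F V) : ℂ :=
  β (cp x W) - ∑ U ∈ (ivp x W).attach, sF β x U.1
termination_by finrank F W
decreasing_by exact Submodule.finrank_lt_finrank_of_lt (mem_ivp.1 U.2).1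

theorem sF_eq (β : F[X] → ℂ) (x : End F V) (W : Submodule F V) :
    sF β x W = β (cp x W) - ∑ U ∈ ivp x W, sF β x U := by
  rw [sF, Finset.sum_attach (ivp x W) (sF β x)]

theorem sum_sF (β : F[X] → ℂ) {x : End F V} {W : Submodule F V} (h : Iv x W) :
    ∑ U ∈ ivs x W, sF β x U = β (cp x W) := by
  rw [sum_ivs h, sF_eq, sub_add_cancel]

theorem sF_bot (β : F[X] → ℂ) (x : End F V) : sF β x ⊥ = β 1 := by
  rw [sF_eq, cp_bot, Finset.sum_eq_zero fun U hU => absurd (mem_ivp.1 hU).1 not_lt_bot, sub_zero]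

/-- A function satisfying the recursion is the Moebius transform. -/
theorem sF_unique (β : F[X] → ℂ) (x : End F V) (g : Submodule F V → ℂ) (W : Submodule F V)
    (hW : Iv x W) (hg : ∀ U ≤ W, Iv x U → ∑ T ∈ ivs x U, g T = β (cp x U)) :
    sF β x W = g W := by
  induction W using WellFoundedLT.induction with
  | ind W ih =>
    rw [sF_eq, ← hg W le_rfl hW, sum_ivs hW, Finset.sum_congr rfl fun U hU =>
      ih U (mem_ivp.1 hU).1 (mem_ivp.1 hU).2 fun T hT => hg T (hT.trans (mem_ivp.1 hU).1.le)]
    ring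

theorem sum_ivs_map {M : Type*} [AddCommMonoid M] {x : End F V} {x' : End F V'} {f : V →ₗ[F] V'}
    {W : Submodule F V} (h : Iv x W) (hd : Disjoint W (LinearMap.ker f))
    (hf : ∀ w ∈ W, f (x w) = x' (f w)) (g : Submodule F V' → M) :
    ∑ U ∈ ivs x' (W.map f), g U = ∑ U ∈ ivs x W, g (U.map f) := by
  symm
  refine Finset.sum_bij' (fun U _ => U.map f) (fun U _ => U.comap f ⊓ W) ?_ ?_ ?_ ?_ ?_
  · intro U hU
    rw [mem_ivs] at hU ⊢
    exact ⟨Submodule.map_mono hU.1, iv_map hU.2 fun w hw => hf w (hU.1 hw)⟩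
  · intro U hU
    rw [mem_ivs] at hU ⊢
    refine ⟨inf_le_right, fun v hv => ⟨?_, h v hv.2⟩⟩
    have := hU.2 _ hv.1
    rwa [← hf v hv.2] at this
  · intro U hU
    rw [mem_ivs] at hU
    refine le_antisymm ?_ (le_inf (Submodule.le_comap_map f U) hU.1)
    rintro v ⟨⟨u, hu, huv⟩, hv⟩
    have : v - u = 0 := (Submodule.disjoint_def.1 hd) _ (W.sub_mem hv (hU.1 hu))
      (by rw [LinearMap.mem_ker, map_sub, huv, sub_self])
    rw [sub_eq_zero.1 this]; exact hu
  · intro U hU
    rw [mem_ivs] at hU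
    refine le_antisymm ?_ fun u hu => ?_
    · rintro _ ⟨v, hv, rfl⟩; exact hv.1
    · obtain ⟨v, hv, rfl⟩ := hU.1 hu
      exact ⟨v, ⟨hu, hv⟩, rfl⟩
  · intro U _; rfl

/-- transport of the Moebius transform -/
theorem sF_map (β : F[X] → ℂ) {x : End F V} {x' : End F V'} {f : V →ₗ[F] V'}
    {W : Submodule F V} (h : Iv x W) (hd : Disjoint W (LinearMap.ker f))
    (hf : ∀ w ∈ W, f (x w) = x' (f w)) : sF β x' (W.map f) = sF β x W := by
  symm
  refine sF_unique β x (fun U => sF β x' (U.map f)) W h fun U hU hi => ?_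
  have hd' := hd.mono_left hU
  have hf' : ∀ w ∈ U, f (x w) = x' (f w) := fun w hw => hf w (hU hw)
  rw [← sum_ivs_map hi hd' hf' (sF β x'), sum_sF β (iv_map hi hf'), cp_map hi hd' hf']

theorem sF_congr (β : F[X] → ℂ) {x x' : End F V} {W : Submodule F V} (h : Iv x W)
    (hf : ∀ w ∈ W, x w = x' w) : sF β x' W = sF β x W := by
  have := sF_map β (x' := x') (f := LinearMap.id) h (by simp) hf
  rwa [Submodule.map_id] at this

theorem sF_restrict (β : F[X] → ℂ) {x : End F V} {W : Submodule F V} (h : Iv x W) :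
    sF β x W = sF β (x.restrict h) ⊤ := by
  have := sF_map β (x := x.restrict h) (x' := x) (f := W.subtype) (iv_top _) (by simp)
    (fun _ _ => rfl)
  rwa [Submodule.map_top, Submodule.range_subtype] at this

theorem sF_equiv (β : F[X] → ℂ) {x : End F V} {x' : End F V'} (e : V ≃ₗ[F] V')
    (hf : ∀ w, e (x w) = x' (e w)) : sF β x' ⊤ = sF β x ⊤ := by
  have := sF_map β (x := x) (x' := x') (f := (e : V →ₗ[F] V')) (iv_top _) (by simp)
    (fun w _ => hf w)
  rwa [Submodule.map_top, LinearEquiv.range] at this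

theorem sF_ringHom (τ : ℂ →+* ℂ) (β : F[X] → ℂ) (x : End F V) (W : Submodule F V) :
    sF (fun f => τ (β f)) x W = τ (sF β x W) := by
  induction W using WellFoundedLT.induction with
  | ind W ih =>
    rw [sF_eq, sF_eq β, map_sub, map_sum,
      Finset.sum_congr rfl fun U hU => ih U (mem_ivp.1 hU).1]

end Cfsg.Agent.H65.Cu
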