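import Cfsg.Agent.H65.CuA

/-!
# Unipotent radicals of subspace stabilisers: counting lemmas
-/

set_option autoImplicit false

open Polynomial Module

namespace Cfsg.Agent.H65.Cu

theorem avg0 {A ι : Type*} [AddCommGroup A] (S : Finset A) (T : Finset ι) (σ : ι → A)
    (Φ : A → ℂ) (hT : T.Nonempty) (h1 : ∀ t ∈ T, ∀ a, a ∈ S ↔ a + σ t ∈ S)
    (h2 : ∀ a ∈ S, ∑ t ∈ T, Φ (a + σ t) = 0) : ∑ a ∈ S, Φ a = 0 := by
  have h3 : ∀ t ∈ T, ∑ a ∈ S, Φ (a + σ t) = ∑ a ∈ S, Φ a := fun t ht =>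
    Finset.sum_equiv (Equiv.addRight (σ t)) (fun a => h1 t ht a) fun _ _ => rfl
  have h4 : ∑ t ∈ T, ∑ a ∈ S, Φ (a + σ t) = 0 := by
    rw [Finset.sum_comm]; exact Finset.sum_eq_zero h2
  rw [Finset.sum_congr rfl h3, Finset.sum_const, nsmul_eq_mul, mul_eq_zero] at h4
  exact h4.resolve_left (Nat.cast_ne_zero.2 hT.card_pos.ne')

theorem card_coset {A : Type*} [AddCommGroup A] (S H : Finset A) (a₀ : A)
    (h : ∀ a, a ∈ S ↔ a - a₀ ∈ H) : S.card = H.card :=
  Finset.card_equiv (Equiv.subRight a₀) h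

variable {F : Type*} [Field F] {V : Type*} [AddCommGroup V] [Module F V]

theorem exists_factor {A B C : Type*} [AddCommGroup A] [Module F A] [AddCommGroup B] [Module F B]
    [AddCommGroup C] [Module F C] (j : A →ₗ[F] B) (g : A →ₗ[F] C)
    (h : LinearMap.ker j ≤ LinearMap.ker g) : ∃ l : B →ₗ[F] C, ∀ a, l (j a) = g a := by
  obtain ⟨l, hl⟩ := ((LinearMap.ker j).liftQ j le_rfl).exists_leftInverse_of_injective
    (Submodule.ker_liftQ_eq_bot _ _ _ le_rfl)
  refine ⟨(LinearMap.ker j).liftQ g h ∘ₗ l, fun a => ?_⟩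
  have := LinearMap.congr_fun hl ((LinearMap.ker j).mkQ a)
  simp only [LinearMap.comp_apply, Submodule.mkQ_apply, Submodule.liftQ_apply,
    LinearMap.id_apply] at this
  rw [LinearMap.comp_apply, this, Submodule.liftQ_apply]

theorem exists_proj {W W₀ : Submodule F V} (h : Disjoint W W₀) :
    ∃ p : End F V, (∀ v, p v ∈ W₀) ∧ (∀ v ∈ W₀, p v = v) ∧ ∀ v ∈ W, p v = 0 := by
  obtain ⟨l, hl⟩ := exists_factor (W.mkQ ∘ₗ W₀.subtype) LinearMap.id fun a ha => by
    have : (a : V) ∈ W := by simpa using ha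
    exact Subtype.ext ((Submodule.disjoint_def.1 h) a this a.2)
  refine ⟨W₀.subtype ∘ₗ l ∘ₗ W.mkQ, fun v => (l _).2, fun v hv => ?_, fun v hv => ?_⟩
  · exact congrArg Subtype.val (hl ⟨v, hv⟩)
  · have : W.mkQ v = 0 := (Submodule.Quotient.mk_eq_zero W).2 hv
    simp only [LinearMap.comp_apply, this, map_zero]

theorem exists_ext {W W₀ : Submodule F V} (n : End F W) (h1 : ∀ w, (n w : V) ∈ W₀)
    (h2 : ∀ w : W, (w : V) ∈ W₀ → n w = 0) :
    ∃ m : End F V, (∀ v, m v ∈ W₀) ∧ (∀ v ∈ W₀, m v = 0) ∧ ∀ w : W, m w = n w := by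
  obtain ⟨l, hl⟩ := exists_factor (W₀.mkQ ∘ₗ W.subtype)
    ((W.subtype ∘ₗ n).codRestrict W₀ h1) fun a ha => by
      have : (a : V) ∈ W₀ := by simpa using ha
      exact Subtype.ext (show ((n a : W) : V) = 0 by rw [h2 a this]; rfl)
  refine ⟨W₀.subtype ∘ₗ l ∘ₗ W₀.mkQ, fun v => (l _).2, fun v hv => ?_, fun w => ?_⟩
  · have : W₀.mkQ v = 0 := (Submodule.Quotient.mk_eq_zero W₀).2 hv
    simp only [LinearMap.comp_apply, this, map_zero]
  · exact congrArg Subtype.val (hl w)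

variable [Finite V]

instance finEnd : Finite (End F V) := Finite.of_injective _ DFunLike.coe_injective

/-- endomorphisms with image in `A` killing `B` -/
noncomputable def nset (A B : Submodule F V) : Finset (End F V) :=
  (Set.toFinite {n : End F V | (∀ v, n v ∈ A) ∧ ∀ v ∈ B, n v = 0}).toFinset

theorem mem_nset {A B : Submodule F V} {n : End F V} :
    n ∈ nset A B ↔ (∀ v, n v ∈ A) ∧ ∀ v ∈ B, n v = 0 := by simp [nset]

theorem zero_mem_nset (A B : Submodule F V) : (0 : End F V) ∈ nset A B :=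
  mem_nset.2 ⟨fun _ => A.zero_mem, fun _ _ => rfl⟩

theorem add_mem_nset {A B : Submodule F V} {n m : End F V} (hn : n ∈ nset A B)
    (hm : m ∈ nset A B) : n + m ∈ nset A B := by
  rw [mem_nset] at *
  exact ⟨fun v => A.add_mem (hn.1 v) (hm.1 v), fun v hv => by
    rw [LinearMap.add_apply, hn.2 v hv, hm.2 v hv, add_zero]⟩

theorem sub_mem_nset {A B : Submodule F V} {n m : End F V} (hn : n ∈ nset A B)
    (hm : m ∈ nset A B) : n - m ∈ nset A B := by
  rw [mem_nset] at *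
  exact ⟨fun v => A.sub_mem (hn.1 v) (hm.1 v), fun v hv => by
    rw [LinearMap.sub_apply, hn.2 v hv, hm.2 v hv, sub_zero]⟩

theorem add_mem_nset_iff {A B : Submodule F V} {n m : End F V} (hm : m ∈ nset A B) :
    n + m ∈ nset A B ↔ n ∈ nset A B :=
  ⟨fun h => by simpa using sub_mem_nset h hm, fun h => add_mem_nset h hm⟩

theorem card_nset (A B : Submodule F V) :
    (nset A B).card = Nat.card F ^ (finrank F A * (finrank F V - finrank F B)) := by
  have e : nset A B ≃ ((V ⧸ B) →ₗ[F] A) :=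
    { toFun n := B.liftQ (n.1.codRestrict A (mem_nset.1 n.2).1) fun v hv =>
        Subtype.ext ((mem_nset.1 n.2).2 v hv)
      invFun l := ⟨A.subtype ∘ₗ l ∘ₗ B.mkQ, mem_nset.2 ⟨fun v => (l _).2, fun v hv => by
        have : B.mkQ v = 0 := (Submodule.Quotient.mk_eq_zero B).2 hv
        simp only [LinearMap.comp_apply, this, map_zero]⟩⟩
      left_inv n := Subtype.ext (LinearMap.ext fun v => rfl)
      right_inv l := Submodule.linearMap_qext _ (LinearMap.ext fun v => rfl) }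
  rw [← Fintype.card_coe, ← Nat.card_eq_fintype_card, Nat.card_congr e, Module.natCard_eq_pow_finrank (K := F),
    Module.finrank_linearMap, mul_comm, ← Submodule.finrank_quotient_add_finrank B,
    Nat.add_sub_cancel]

theorem iv_add_iff {x n : End F V} {W W₀ : Submodule F V} (hn : n ∈ nset W₀ W) :
    Iv (x + n) W ↔ Iv x W :=
  forall₂_congr fun v hv => by rw [LinearMap.add_apply, (mem_nset.1 hn).2 v hv, add_zero]

theorem qE_add {x n : End F V} {W B : Submodule F V} (hn : n ∈ nset W B) (h : Iv x W)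
    (h' : Iv (x + n) W) : qE (x + n) h' = qE x h := by
  refine Submodule.linearMap_qext _ (LinearMap.ext fun v => ?_)
  change W.mkQ ((x + n) v) = W.mkQ (x v)
  rw [LinearMap.add_apply, map_add, show W.mkQ (n v) = 0 from
    (Submodule.Quotient.mk_eq_zero W).2 ((mem_nset.1 hn).1 v), add_zero]

theorem cp_congr {x x' : End F V} {W : Submodule F V} (h : Iv x W) (hf : ∀ w ∈ W, x w = x' w) :
    cp x' W = cp x W := by
  have := cp_map (x' := x') (f := LinearMap.id) h (by simp) hf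
  rwa [Submodule.map_id] at this

theorem cp_add {x n : End F V} {W : Submodule F V} (hn : n ∈ nset W W) (h : Iv x W) :
    cp (x + n) ⊤ = cp x ⊤ := by
  have h' := (iv_add_iff (x := x) hn).2 h
  rw [cp_top_eq_mul h, cp_top_eq_mul h', qE_add hn h h', cp_congr h fun w hw => by
    rw [LinearMap.add_apply, (mem_nset.1 hn).2 w hw, add_zero]]

theorem charpoly_add {x n : End F V} {W : Submodule F V} (hn : n ∈ nset W W) (h : Iv x W) :
    (x + n).charpoly = x.charpoly := by rw [← cp_top, ← cp_top, cp_add hn h]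

open Classical in
theorem card_iv_compl {x : End F V} {W W₀ : Submodule F V} (h : Iv x W₀) (hd : Disjoint W W₀)
    (hq : Iv (qE x h) (W.map W₀.mkQ)) :
    ((nset W₀ W₀).filter fun n => Iv (x + n) W).card = (nset W₀ (W ⊔ W₀)).card := by
  obtain ⟨p, p1, p2, p3⟩ := exists_proj hd
  let n₀ : End F V := -(p ∘ₗ x ∘ₗ (1 - p))
  have hn₀ : n₀ ∈ nset W₀ W₀ := mem_nset.2 ⟨fun v => W₀.neg_mem (p1 _), fun v hv => by
    simp [n₀, p2 v hv]⟩
  have hi : Iv (x + n₀) W := by
    intro w hw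
    obtain ⟨w', hw', e⟩ := hq _ ⟨w, hw, rfl⟩
    have e' : w' - x w ∈ W₀ := (Submodule.Quotient.eq W₀).1 e
    have : (x + n₀) w = w' := by
      have h1 := p2 _ e'
      rw [map_sub, p3 w' hw', zero_sub] at h1
      simp only [n₀, LinearMap.add_apply, LinearMap.neg_apply, LinearMap.comp_apply,
        LinearMap.sub_apply, Module.End.one_apply, p3 w hw, sub_zero, h1]
      abel
    rw [this]; exact hw'
  refine card_coset _ _ n₀ fun n => ?_
  rw [Finset.mem_filter]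
  constructor
  · rintro ⟨h1, h2⟩
    have h3 := mem_nset.1 (sub_mem_nset h1 hn₀)
    refine mem_nset.2 ⟨h3.1, fun v hv => ?_⟩
    obtain ⟨w, hw, w₀, hw₀, rfl⟩ := Submodule.mem_sup.1 hv
    rw [map_add, h3.2 w₀ hw₀, add_zero]
    refine (Submodule.disjoint_def.1 hd) _ ?_ (h3.1 w)
    have := W.sub_mem (h2 w hw) (hi w hw)
    simpa using this
  · intro h1
    have h2 := mem_nset.1 h1
    have h3 : n - n₀ ∈ nset W₀ W₀ := mem_nset.2 ⟨h2.1, fun v hv => h2.2 v (Submodule.mem_sup_right hv)⟩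
    have h4 : n - n₀ ∈ nset W₀ W := mem_nset.2 ⟨h2.1, fun v hv => h2.2 v (Submodule.mem_sup_left hv)⟩
    refine ⟨by simpa using add_mem_nset h3 hn₀, ?_⟩
    have := (iv_add_iff (x := x + n₀) h4).2 hi
    rwa [show x + n₀ + (n - n₀) = x + n by abel] at this

/-- complements of `W₀` with prescribed image in the quotient -/
noncomputable def cpl (W₀ : Submodule F V) (W₂ : Submodule F (V ⧸ W₀)) : Finset (Submodule F V) :=
  (Set.toFinite {W | Disjoint W W₀ ∧ W.map W₀.mkQ = W₂}).toFinset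

theorem mem_cpl {W₀ : Submodule F V} {W₂ : Submodule F (V ⧸ W₀)} {W : Submodule F V} :
    W ∈ cpl W₀ W₂ ↔ Disjoint W W₀ ∧ W.map W₀.mkQ = W₂ := by simp [cpl]

theorem sup_eq_of_mem_cpl {W₀ : Submodule F V} {W₂ : Submodule F (V ⧸ W₀)} {W : Submodule F V}
    (h : W ∈ cpl W₀ W₂) : W ⊔ W₀ = W₂.comap W₀.mkQ := by
  rw [← (mem_cpl.1 h).2, Submodule.comap_map_mkQ, sup_comm]

theorem cpl_nonempty (W₀ : Submodule F V) (W₂ : Submodule F (V ⧸ W₀)) :
    (cpl W₀ W₂).Nonempty := by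
  obtain ⟨C, hC⟩ := W₀.exists_isCompl
  refine ⟨C ⊓ W₂.comap W₀.mkQ, mem_cpl.2 ⟨hC.symm.disjoint.mono_left inf_le_left,
    le_antisymm ?_ fun u hu => ?_⟩⟩
  · rintro _ ⟨v, hv, rfl⟩; exact hv.2
  · obtain ⟨v, rfl⟩ := W₀.mkQ_surjective u
    obtain ⟨a, ha, c, hc, rfl⟩ := Submodule.mem_sup.1 (hC.sup_eq_top ▸ Submodule.mem_top :
      v ∈ W₀ ⊔ C)
    have e : W₀.mkQ (a + c) = W₀.mkQ c := by
      rw [map_add, show W₀.mkQ a = 0 from (Submodule.Quotient.mk_eq_zero W₀).2 ha, zero_add]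
    exact ⟨c, ⟨hc, by rw [e] at hu; exact hu⟩, e.symm⟩

theorem card_cpl_mul (W₀ : Submodule F V) (W₂ : Submodule F (V ⧸ W₀)) :
    (cpl W₀ W₂).card * (nset W₀ (W₂.comap W₀.mkQ)).card = (nset W₀ W₀).card := by
  classical
  obtain ⟨C, hC⟩ := cpl_nonempty W₀ W₂
  obtain ⟨hd, hm⟩ := mem_cpl.1 hC
  have hz : ∀ {m : End F V}, m ∈ nset W₀ W₀ → ∀ v, W₀.mkQ ((1 + m) v) = W₀.mkQ v := by
    intro m h v
    rw [LinearMap.add_apply, map_add, show W₀.mkQ (m v) = 0 from
      (Submodule.Quotient.mk_eq_zero W₀).2 ((mem_nset.1 h).1 v), add_zero]; rfl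
  rw [Finset.card_eq_sum_card_fiberwise (s := nset W₀ W₀) (t := cpl W₀ W₂)
    (f := fun m => C.map (1 + m)), ← smul_eq_mul, ← Finset.sum_const]
  · refine Finset.sum_congr rfl fun W hW => ?_
    obtain ⟨hd', hm'⟩ := mem_cpl.1 hW
    obtain ⟨p, p1, p2, p3⟩ := exists_proj hd'
    obtain ⟨r, r1, r2, r3⟩ := exists_proj hd
    have hm₀ : r - p ∈ nset W₀ W₀ := mem_nset.2 ⟨fun v => W₀.sub_mem (r1 v) (p1 v),
      fun v hv => by rw [LinearMap.sub_apply, r2 v hv, p2 v hv, sub_self]⟩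
    have key : ∀ c ∈ C, ∀ w ∈ W, W₀.mkQ w = W₀.mkQ c → (1 + (r - p)) c = w := by
      intro c hc w hw e
      have h1 := p2 _ ((Submodule.Quotient.eq W₀).1 e)
      rw [map_sub, p3 w hw, zero_sub] at h1
      rw [LinearMap.add_apply, LinearMap.sub_apply, r3 c hc, zero_sub, h1, Module.End.one_apply]
      abel
    have hW₀ : C.map (1 + (r - p)) = W := by
      refine le_antisymm ?_ fun w hw => ?_
      · rintro _ ⟨c, hc, rfl⟩
        obtain ⟨w, hw, e⟩ : W₀.mkQ c ∈ W.map W₀.mkQ := by rw [hm', ← hm]; exact ⟨c, hc, rfl⟩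
        rw [key c hc w hw e]; exact hw
      · obtain ⟨c, hc, e⟩ : W₀.mkQ w ∈ C.map W₀.mkQ := by rw [hm, ← hm']; exact ⟨w, hw, rfl⟩
        exact ⟨c, hc, key c hc w hw e.symm⟩
    symm
    refine card_coset _ _ (r - p) fun m => ?_
    rw [Finset.mem_filter, ← sup_eq_of_mem_cpl hC]
    constructor
    · rintro ⟨h1, h2⟩
      have h3 := mem_nset.1 (sub_mem_nset h1 hm₀)
      refine mem_nset.2 ⟨h3.1, fun v hv => ?_⟩
      obtain ⟨c, hc, w₀, hw₀, rfl⟩ := Submodule.mem_sup.1 hv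
      rw [map_add, h3.2 w₀ hw₀, add_zero]
      have := key c hc ((1 + m) c) (h2 ▸ ⟨c, hc, rfl⟩) (hz h1 c)
      rw [LinearMap.add_apply, LinearMap.add_apply, add_right_inj] at this
      rw [LinearMap.sub_apply, this, sub_self]
    · intro h1
      have h2 := mem_nset.1 h1
      have h3 : m - (r - p) ∈ nset W₀ W₀ :=
        mem_nset.2 ⟨h2.1, fun v hv => h2.2 v (Submodule.mem_sup_right hv)⟩
      refine ⟨by simpa using add_mem_nset h3 hm₀, ?_⟩
      rw [← hW₀]
      have : ∀ c ∈ C, (1 + m) c = (1 + (r - p)) c := fun c hc => by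
        have := h2.2 c (Submodule.mem_sup_left hc)
        rw [LinearMap.sub_apply, sub_eq_zero] at this
        rw [LinearMap.add_apply, LinearMap.add_apply, this]
      ext v
      exact ⟨fun ⟨c, hc, e⟩ => ⟨c, hc, (this c hc).symm.trans e⟩,
        fun ⟨c, hc, e⟩ => ⟨c, hc, (this c hc).trans e⟩⟩
  · intro m h
    have h : m ∈ nset W₀ W₀ := h
    refine mem_cpl.2 ⟨Submodule.disjoint_def.2 ?_, ?_⟩
    · rintro _ ⟨c, hc, rfl⟩ h0
      have : W₀.mkQ c = 0 := by
        rw [← hz h c]; exact (Submodule.Quotient.mk_eq_zero W₀).2 h0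
      rw [(Submodule.disjoint_def.1 hd) c hc ((Submodule.Quotient.mk_eq_zero W₀).1 this), map_zero]
    · rw [← hm, ← Submodule.map_comp]
      congr 1
      exact LinearMap.ext (hz h)

/-- summation over the subspaces meeting `W₀` trivially -/
theorem sum_disjoint {M : Type*} [AddCommMonoid M] (W₀ : Submodule F V)
    [Fintype (Submodule F V)] [Fintype (Submodule F (V ⧸ W₀))] [DecidablePred (Disjoint · W₀)]
    (g : Submodule F V → M) :
    (∑ W, if Disjoint W W₀ then g W else 0) = ∑ W₂, ∑ W ∈ cpl W₀ W₂, g W := by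
  classical
  rw [← Finset.sum_filter, ← Finset.sum_fiberwise (g := fun W => W.map W₀.mkQ)]
  refine Finset.sum_congr rfl fun W₂ _ => Finset.sum_congr ?_ fun _ _ => rfl
  ext W; simp [mem_cpl]

end Cfsg.Agent.H65.Cu
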