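import Cfsg.Agent.H65.CuB

/-!
# Cuspidality and degree of the Moebius transform
-/

set_option autoImplicit false

open Polynomial Module

namespace Cfsg.Agent.H65.Cu

universe v

variable {F : Type*} [Field F]

/-- `β` is additive on products of monic polynomials -/
def Adv (β : F[X] → ℂ) : Prop := ∀ f g : F[X], f.Monic → g.Monic → β (f * g) = β f + β g

theorem Adv.one {β : F[X] → ℂ} (h : Adv β) : β 1 = 0 := by
  have := h 1 1 monic_one monic_one
  rw [mul_one] at this
  exact left_eq_add.1 this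

section
variable {V : Type*} [AddCommGroup V] [Module F V] [Finite V]

theorem sum_ivs_top {M : Type*} [AddCommMonoid M] [Fintype (Submodule F V)] (x : End F V)
    [DecidablePred (Iv x)] (g : Submodule F V → M) :
    ∑ W ∈ ivs x ⊤, g W = ∑ W, if Iv x W then g W else 0 := by
  rw [← Finset.sum_filter]
  refine Finset.sum_congr ?_ fun _ _ => rfl
  ext W; simp [mem_ivs]

open Classical in
theorem cusp_le (β : F[X] → ℂ) [Fintype (Submodule F V)] {x : End F V} {W₀ : Submodule F V}
    (h : Iv x W₀) :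
    (∑ W, if W ≤ W₀ then ∑ n ∈ nset W₀ W₀, if Iv (x + n) W then sF β (x + n) W else 0 else 0) =
      (nset W₀ W₀).card * β (cp x W₀) := by
  rw [← sum_sF β h, Finset.mul_sum]
  have : ivs x W₀ = Finset.univ.filter fun W => W ≤ W₀ ∧ Iv x W := by ext W; simp [mem_ivs]
  rw [this, Finset.sum_filter]
  refine Finset.sum_congr rfl fun W _ => ?_
  by_cases h1 : W ≤ W₀
  · have h2 : ∀ n ∈ nset W₀ W₀, n ∈ nset W₀ W := fun n hn =>
      mem_nset.2 ⟨(mem_nset.1 hn).1, fun v hv => (mem_nset.1 hn).2 v (h1 hv)⟩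
    rw [if_pos h1]
    by_cases h3 : Iv x W
    · rw [if_pos ⟨h1, h3⟩, ← nsmul_eq_mul, ← Finset.sum_const]
      refine Finset.sum_congr rfl fun n hn => ?_
      rw [if_pos ((iv_add_iff (h2 n hn)).2 h3), sF_congr β h3 fun w hw => by
        rw [LinearMap.add_apply, (mem_nset.1 (h2 n hn)).2 w hw, add_zero]]
    · rw [if_neg fun h => h3 h.2]
      exact Finset.sum_eq_zero fun n hn => if_neg fun h => h3 ((iv_add_iff (h2 n hn)).1 h)
  · rw [if_neg h1, if_neg fun h => h1 h.1]

open Classical in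
theorem cusp_disj (β : F[X] → ℂ) [Fintype (Submodule F V)] {x : End F V} {W₀ : Submodule F V}
    (h : Iv x W₀) :
    (∑ W, if Disjoint W W₀ then
      ∑ n ∈ nset W₀ W₀, if Iv (x + n) W then sF β (x + n) W else 0 else 0) =
      (nset W₀ W₀).card * β (cp (qE x h) ⊤) := by
  have := Fintype.ofFinite (Submodule F (V ⧸ W₀))
  rw [sum_disjoint, ← sum_sF β (iv_top _), sum_ivs_top, Finset.mul_sum]
  refine Finset.sum_congr rfl fun W₂ _ => ?_
  have hc : ∀ n ∈ nset W₀ W₀, ∀ w, W₀.mkQ ((x + n) w) = qE x h (W₀.mkQ w) := fun n hn w => by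
    rw [← qE_add hn h ((iv_add_iff hn).2 h), qE_mk]
  by_cases h2 : Iv (qE x h) W₂
  · rw [if_pos h2, ← card_cpl_mul W₀ W₂, Nat.cast_mul, mul_assoc, ← nsmul_eq_mul,
      ← Finset.sum_const]
    refine Finset.sum_congr rfl fun W hW => ?_
    obtain ⟨hd, rfl⟩ := mem_cpl.1 hW
    rw [← sup_eq_of_mem_cpl hW, ← card_iv_compl h hd h2, ← Finset.sum_filter, ← nsmul_eq_mul,
      ← Finset.sum_const]
    refine Finset.sum_congr rfl fun n hn => ?_
    obtain ⟨h3, h4⟩ := Finset.mem_filter.1 hn
    exact (sF_map β h4 (by rwa [Submodule.ker_mkQ]) fun w _ => hc n h3 w).symm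
  · rw [if_neg h2, mul_zero]
    refine Finset.sum_eq_zero fun W hW => Finset.sum_eq_zero fun n hn => if_neg fun h3 => h2 ?_
    rw [← (mem_cpl.1 hW).2]
    exact iv_map h3 fun w _ => hc n hn w

end

theorem cusp_aux {β : F[X] → ℂ} (hβ : Adv β) (d : ℕ) : ∀ (V : Type v) [AddCommGroup V]
    [Module F V] [Finite V], finrank F V = d → ∀ (x : End F V) (W₀ : Submodule F V), Iv x W₀ →
    W₀ ≠ ⊥ → W₀ ≠ ⊤ → ∑ n ∈ nset W₀ W₀, sF β (x + n) ⊤ = 0 := by
  induction d using Nat.strong_induction_on with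
  | _ d ih =>
  intro V _ _ _ hd x W₀ h h0 h1
  classical
  have := Fintype.ofFinite (Submodule F V)
  let T : Submodule F V → ℂ := fun W =>
    ∑ n ∈ nset W₀ W₀, if Iv (x + n) W then sF β (x + n) W else 0
  have e1 : ∑ W, T W = (nset W₀ W₀).card * (β (cp x W₀) + β (cp (qE x h) ⊤)) := by
    rw [Finset.sum_comm, ← hβ _ _ (cp_monic _ _) (cp_monic _ _), ← cp_top_eq_mul h,
      ← nsmul_eq_mul, ← Finset.sum_const]
    refine Finset.sum_congr rfl fun n hn => ?_
    rw [← sum_ivs_top, sum_sF β (iv_top _), cp_add hn h]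
  have e2 : ∀ W, T W = (if W ≤ W₀ then T W else 0) + (if Disjoint W W₀ then T W else 0) +
      if W = ⊤ then T W else 0 := by
    intro W
    by_cases a1 : W = ⊥
    · have : T W = 0 := Finset.sum_eq_zero fun n _ => by rw [a1, sF_bot, hβ.one, ite_self]
      simp [this]
    by_cases a2 : W = ⊤
    · rw [if_pos a2, if_neg (by rw [a2, top_le_iff]; exact h1),
        if_neg (by rw [a2, top_disjoint]; exact h0), zero_add, zero_add]
    by_cases a3 : W ≤ W₀
    · rw [if_pos a3, if_neg a2, if_neg fun hd => a1 (hd.eq_bot_of_le a3), add_zero, add_zero]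
    by_cases a4 : Disjoint W W₀
    · rw [if_neg a3, if_neg a2, if_pos a4, zero_add, add_zero]
    rw [if_neg a3, if_neg a2, if_neg a4, add_zero, add_zero]
    change ∑ n ∈ nset W₀ W₀, _ = 0
    rw [← Finset.sum_filter]
    let W₁ : Submodule F W := W₀.comap W.subtype
    have hex : ∀ n : End F W, ∃ m : End F V, n ∈ nset W₁ W₁ →
        m ∈ nset W₀ W₀ ∧ ∀ w : W, m w = n w := fun n => by
      by_cases hn : n ∈ nset W₁ W₁
      · obtain ⟨m, m1, m2, m3⟩ := exists_ext n (mem_nset.1 hn).1 (mem_nset.1 hn).2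
        exact ⟨m, fun _ => ⟨mem_nset.2 ⟨m1, m2⟩, m3⟩⟩
      · exact ⟨0, fun h => absurd h hn⟩
    choose σ hσ using hex
    have hiv : ∀ n ∈ nset W₁ W₁, ∀ a, Iv (x + a) W ↔ Iv (x + (a + σ n)) W := by
      intro n hn a
      refine forall₂_congr fun w hw => ?_
      rw [← add_assoc, LinearMap.add_apply (x + a), (hσ n hn).2 ⟨w, hw⟩,
        W.add_mem_iff_left (n ⟨w, hw⟩).2]
    refine avg0 _ (nset W₁ W₁) σ (fun n => sF β (x + n) W) ⟨0, zero_mem_nset _ _⟩
      (fun n hn a => ?_) fun a ha => ?_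
    · rw [Finset.mem_filter, Finset.mem_filter, add_mem_nset_iff (hσ n hn).1, hiv n hn]
    · obtain ⟨ha1, ha2⟩ := Finset.mem_filter.1 ha
      have hlt : finrank F W < d := hd ▸ Submodule.finrank_lt a2
      rw [← ih _ hlt W rfl ((x + a).restrict ha2) W₁
        (fun w hw => (iv_add_iff ha1).2 h w hw) (fun e => a4 ?_) fun e => a3 ?_]
      · refine Finset.sum_congr rfl fun n hn => ?_
        rw [sF_restrict β ((hiv n hn a).1 ha2)]
        congr 1
        refine LinearMap.ext fun w => Subtype.ext ?_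
        change (x + (a + σ n)) w = (x + a) w + n w
        rw [← add_assoc, LinearMap.add_apply (x + a), (hσ n hn).2 w]
      · refine Submodule.disjoint_def.2 fun w hw hw0 => ?_
        have : (⟨w, hw⟩ : W) ∈ W₁ := hw0
        rw [e] at this
        exact congrArg Subtype.val ((Submodule.mem_bot F).1 this)
      · intro w hw
        have : (⟨w, hw⟩ : W) ∈ W₁ := e ▸ Submodule.mem_top
        exact this
  rw [Finset.sum_congr rfl fun W _ => e2 W, Finset.sum_add_distrib, Finset.sum_add_distrib,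
    Finset.sum_ite_eq', if_pos (Finset.mem_univ _), cusp_le β h, cusp_disj β h, ← mul_add,
    add_eq_left] at e1
  rw [← e1]
  exact Finset.sum_congr rfl fun n _ => (if_pos (iv_top _)).symm

variable {V : Type*} [AddCommGroup V] [Module F V] [Finite V]

/-- cuspidality -/
theorem cusp {β : F[X] → ℂ} (hβ : Adv β) {x : End F V} {W₀ : Submodule F V} (h : Iv x W₀)
    (h0 : W₀ ≠ ⊥) (h1 : W₀ ≠ ⊤) : ∑ n ∈ nset W₀ W₀, sF β (x + n) ⊤ = 0 :=
  cusp_aux hβ _ V rfl x W₀ h h0 h1

/-- orthogonality to functions induced from a proper subspace stabiliser -/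
theorem cusp_orth {β : F[X] → ℂ} (hβ : Adv β) [Fintype (End F V)] {W₀ : Submodule F V}
    (h0 : W₀ ≠ ⊥) (h1 : W₀ ≠ ⊤) (ψ : End F V → ℂ) (h2 : ∀ x, ¬ Iv x W₀ → ψ x = 0)
    (h3 : ∀ x, Iv x W₀ → ∀ n ∈ nset W₀ W₀, ψ (x + n) = ψ x) :
    ∑ x, sF β x ⊤ * ψ x = 0 := by
  refine avg0 _ (nset W₀ W₀) id _ ⟨0, zero_mem_nset _ _⟩ (by simp) fun x _ => ?_
  by_cases h : Iv x W₀
  · rw [Finset.sum_congr rfl fun n hn => by rw [id, h3 x h n hn], ← Finset.sum_mul,
      cusp hβ h h0 h1, zero_mul]
  · exact Finset.sum_eq_zero fun n hn => by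
      rw [id, h2 _ fun h' => h ((iv_add_iff hn).1 h'), mul_zero]

theorem sum_line (L : Submodule F V) (hL : finrank F L = 1) [Fintype (Submodule F V)]
    [Fintype (Submodule F (V ⧸ L))] (g : ℕ → ℂ) :
    ∑ W : Submodule F V, g (finrank F W) = ∑ W₂ : Submodule F (V ⧸ L),
      (g (finrank F W₂ + 1) + (Nat.card F : ℂ) ^ finrank F W₂ * g (finrank F W₂)) := by
  classical
  have hF : Finite F := by
    obtain ⟨v, hv, -⟩ := finrank_eq_one_iff'.1 hL
    exact Finite.of_injective (fun c : F => c • v) (smul_left_injective F hv)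
  have hcm : ∀ W₂ : Submodule F (V ⧸ L), finrank F (W₂.comap L.mkQ) = finrank F W₂ + 1 := by
    intro W₂
    obtain ⟨C, hC⟩ := cpl_nonempty L W₂
    have h1 := Submodule.finrank_sup_add_finrank_inf_eq C L
    have h2 := cp_natDegree (iv_map (x' := 0) (f := L.mkQ) (W := C) (x := 0)
      (fun v _ => C.zero_mem) (fun _ _ => rfl))
    rw [cp_map (x := 0) (f := L.mkQ) (fun v _ => C.zero_mem)
      (by rw [Submodule.ker_mkQ]; exact (mem_cpl.1 hC).1)
      (fun _ _ => rfl), cp_natDegree (fun v _ => C.zero_mem), (mem_cpl.1 hC).2] at h2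
    rw [(mem_cpl.1 hC).1.eq_bot, finrank_bot, sup_eq_of_mem_cpl hC, hL, h2] at h1
    exact h1
  have e : ∀ W : Submodule F V, g (finrank F W) = (if L ≤ W then g (finrank F W) else 0) +
      if Disjoint W L then g (finrank F W) else 0 := by
    intro W
    have hat : IsAtom L := Submodule.isAtom_iff_finrank_eq_one.2 hL
    by_cases h : L ≤ W
    · rw [if_pos h, if_neg fun hd => hat.1 (hd.symm.eq_bot_of_le h), add_zero]
    · rw [if_neg h, if_pos (hat.not_le_iff_disjoint.1 h).symm, zero_add]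
  rw [Finset.sum_congr rfl fun W _ => e W, Finset.sum_add_distrib, Finset.sum_add_distrib,
    sum_disjoint, ← Finset.sum_filter]
  congr 1
  · symm
    refine Finset.sum_bij' (fun U _ => U.comap L.mkQ) (fun U _ => U.map L.mkQ) ?_ ?_ ?_ ?_ ?_
    · intro U _; exact Finset.mem_filter.2 ⟨Finset.mem_univ _, Submodule.le_comap_mkQ _ _⟩
    · intro U _; simp
    · intro U _; exact Submodule.map_comap_eq_of_surjective L.mkQ_surjective U
    · intro U hU; rw [Submodule.comap_map_mkQ, sup_eq_right.2 (Finset.mem_filter.1 hU).2]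
    · intro U _; rw [hcm]
  · refine Finset.sum_congr rfl fun W₂ _ => ?_
    have h1 := card_cpl_mul L W₂
    have h2 := Submodule.finrank_le (W₂.comap L.mkQ)
    rw [card_nset, card_nset, hL, one_mul, one_mul, hcm] at h1
    rw [hcm] at h2
    have h3 : (cpl L W₂).card = Nat.card F ^ finrank F W₂ := by
      refine Nat.eq_of_mul_eq_mul_right (pow_pos Nat.card_pos _) (h1.trans ?_)
      rw [← pow_add]; congr 1; omega
    rw [← Nat.cast_pow, ← h3, ← nsmul_eq_mul, ← Finset.sum_const]
    refine Finset.sum_congr rfl fun C hC => ?_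
    have h4 := Submodule.finrank_sup_add_finrank_inf_eq C L
    rw [(mem_cpl.1 hC).1.eq_bot, finrank_bot, sup_eq_of_mem_cpl hC, hL, hcm] at h4
    congr 1; omega

/-- the degree function -/
noncomputable def sig (q : ℂ) (j : ℕ) : ℂ := if j = 0 then 0 else ∏ i ∈ Finset.Ico 1 j, (1 - q ^ i)

theorem sum_sig (d : ℕ) : ∀ (V : Type v) [AddCommGroup V] [Module F V] [Finite V]
    [Fintype (Submodule F V)], finrank F V = d →
    ∑ W : Submodule F V, sig (Nat.card F) (finrank F W) = d := by
  classical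
  induction d with
  | zero =>
    intro V _ _ _ _ hd
    rw [Nat.cast_zero]
    refine Finset.sum_eq_zero fun W _ => if_pos ?_
    have := Submodule.finrank_le W
    omega
  | succ d ih =>
    intro V _ _ _ _ hd
    have : Nontrivial V := Module.nontrivial_of_finrank_eq_succ hd
    obtain ⟨v, hv⟩ := exists_ne (0 : V)
    have hL := finrank_span_singleton (K := F) hv
    have := Fintype.ofFinite (Submodule F (V ⧸ F ∙ v))
    have h1 := Submodule.finrank_quotient_add_finrank (F ∙ v)
    rw [sum_line _ hL, Nat.cast_succ, ← ih (V ⧸ F ∙ v) (by omega)]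
    have : ∀ W : Submodule F (V ⧸ F ∙ v), sig (Nat.card F) (finrank F W + 1) +
        (Nat.card F : ℂ) ^ finrank F W * sig (Nat.card F) (finrank F W) =
        sig (Nat.card F) (finrank F W) + if W = ⊥ then 1 else 0 := by
      intro W
      by_cases h : W = ⊥
      · simp [h, sig]
      · have h2 : finrank F W ≠ 0 := fun e => h (Submodule.finrank_eq_zero.1 e)
        rw [if_neg h, sig, sig, if_neg h2, if_neg (Nat.succ_ne_zero _),
          Finset.prod_Ico_succ_top (by omega)]
        ring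
    rw [Finset.sum_congr rfl fun W _ => this W, Finset.sum_add_distrib, Finset.sum_ite_eq',
      if_pos (Finset.mem_univ _)]

/-- the degree -/
theorem sF_one {β : F[X] → ℂ} (h : ∀ j : ℕ, β ((X - 1) ^ j) = j) :
    sF β (1 : End F V) ⊤ = sig (Nat.card F) (finrank F V) := by
  classical
  rw [sF_unique β 1 (fun W => sig (Nat.card F) (finrank F W)) ⊤ (iv_top _), finrank_top]
  intro U _ hU
  have := Fintype.ofFinite (Submodule F U)
  have h1 := sum_ivs_map (x := (1 : End F U)) (x' := (1 : End F V)) (f := U.subtype) (iv_top _)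
    (by simp) (fun _ _ => rfl) fun W => sig (Nat.card F) (finrank F W)
  rw [Submodule.map_top, Submodule.range_subtype] at h1
  rw [h1, cp_eq hU, show (1 : End F V).restrict hU = 1 from rfl, LinearMap.charpoly_one, h,
    ← sum_sig _ U rfl]
  refine Finset.sum_congr ?_ fun W _ => by rw [Submodule.finrank_map_subtype_eq]
  ext W; simp [mem_ivs, Iv]

end Cfsg.Agent.H65.Cu
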