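import Cfsg.Agent.H65.CuC
import Cfsg.Agent.H66.CycDecomp

/-!
# Cyclic modules
-/

set_option autoImplicit false

open Polynomial Module

namespace Cfsg.Agent.H65.Cu

variable {F : Type*} [Field F] {V V' : Type*} [AddCommGroup V] [Module F V] [AddCommGroup V']
  [Module F V']

/-- `p ↦ p(x) v` -/
noncomputable def evl (x : End F V) (v : V) : F[X] →ₗ[F] V :=
  LinearMap.applyₗ v ∘ₗ (aeval x).toLinearMap

theorem evl_apply (x : End F V) (v : V) (p : F[X]) : evl x v p = aeval x p v := rfl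

theorem evl_mul (x : End F V) (v : V) (p r : F[X]) : evl x v (p * r) = evl x (evl x v r) p := by
  simp [evl_apply]

theorem evl_one (x : End F V) (v : V) : evl x v 1 = v := by simp [evl_apply]

theorem evl_X (x : End F V) (v : V) : evl x v X = x v := by simp [evl_apply]

theorem evl_X_mul (x : End F V) (v : V) (p : F[X]) : evl x v (X * p) = x (evl x v p) := by
  rw [evl_mul, evl_X]

theorem evl_map {x : End F V} {x' : End F V'} (f : V →ₗ[F] V') (hf : ∀ w, f (x w) = x' (f w))
    (v : V) (p : F[X]) : f (evl x v p) = evl x' (f v) p := by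
  induction p using Polynomial.induction_on with
  | C a => simp [evl_apply]
  | add p r hp hr => rw [map_add, map_add, map_add, hp, hr]
  | monomial n a h => rw [pow_succ, ← mul_assoc, mul_comm _ X, evl_X_mul, evl_X_mul, hf, h]

theorem evl_restrict {x : End F V} {W : Submodule F V} (h : Iv x W) (w : W) (p : F[X]) :
    (evl (x.restrict h) w p : V) = evl x w p :=
  evl_map (x := x.restrict h) (x' := x) W.subtype (fun _ => rfl) w p

theorem iv_range_evl (x : End F V) (v : V) : Iv x (LinearMap.range (evl x v)) := by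
  rintro _ ⟨p, rfl⟩
  exact ⟨X * p, evl_X_mul x v p⟩

theorem iso_of_ker {x : End F V} {x' : End F V'} {v : V} {v' : V'}
    (h : Function.Surjective (evl x v)) (h' : Function.Surjective (evl x' v'))
    (hk : ∀ p, evl x v p = 0 ↔ evl x' v' p = 0) :
    ∃ e : V ≃ₗ[F] V', e v = v' ∧ ∀ w, e (x w) = x' (e w) := by
  obtain ⟨l, hl⟩ := exists_factor (evl x v) (evl x' v') fun p hp => (hk p).1 hp
  have hb : Function.Bijective l := by
    refine ⟨(injective_iff_map_eq_zero l).2 fun w hw => ?_, fun w => ?_⟩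
    · obtain ⟨p, rfl⟩ := h w
      rw [hl] at hw; exact (hk p).2 hw
    · obtain ⟨p, rfl⟩ := h' w
      exact ⟨_, hl p⟩
  refine ⟨LinearEquiv.ofBijective l hb, ?_, fun w => ?_⟩
  · have := hl 1
    rwa [evl_one, evl_one] at this
  · obtain ⟨p, rfl⟩ := h w
    change l _ = x' (l _)
    rw [← evl_X_mul, hl, hl, evl_X_mul]

theorem evl_root (f p : F[X]) :
    evl (LinearMap.mulLeft F (AdjoinRoot.root f)) 1 p = AdjoinRoot.mk f p := by
  induction p using Polynomial.induction_on with
  | C a => simp [evl_apply, Algebra.algebraMap_eq_smul_one, ← AdjoinRoot.algebraMap_eq]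
  | add p r hp hr => rw [map_add, map_add, hp, hr]
  | monomial n a h =>
    rw [pow_succ, ← mul_assoc, mul_comm _ X, evl_X_mul, h, map_mul (AdjoinRoot.mk f) X]; rfl

theorem evl_root_surj (f : F[X]) :
    Function.Surjective (evl (LinearMap.mulLeft F (AdjoinRoot.root f)) 1) := fun w => by
  obtain ⟨p, rfl⟩ := AdjoinRoot.mk_surjective w
  exact ⟨p, evl_root f p⟩

theorem charpoly_of_equiv [FiniteDimensional F V] [FiniteDimensional F V'] {x : End F V}
    {x' : End F V'} (e : V ≃ₗ[F] V') (h : ∀ w, e (x w) = x' (e w)) : x'.charpoly = x.charpoly := by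
  rw [← e.charpoly_conj]
  congr 1
  refine LinearMap.ext fun w => ?_
  obtain ⟨w, rfl⟩ := e.surjective w
  rw [LinearEquiv.conj_apply_apply, e.symm_apply_apply, h]

theorem charpoly_of_ker [FiniteDimensional F V] {x : End F V} {v : V} {f : F[X]} (hf : f.Monic)
    (h : Function.Surjective (evl x v)) (hk : ∀ p, evl x v p = 0 ↔ f ∣ p) : x.charpoly = f := by
  have := H66.adjoinRoot_finite hf
  obtain ⟨e, -, he⟩ := iso_of_ker (evl_root_surj f) h fun p => by
    rw [evl_root, AdjoinRoot.mk_eq_zero, hk]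
  rw [charpoly_of_equiv e he, H66.charpoly_mul_root hf]

theorem evl_eq_zero_iff [FiniteDimensional F V] {x : End F V} {v : V}
    (h : Function.Surjective (evl x v)) (p : F[X]) : evl x v p = 0 ↔ x.charpoly ∣ p := by
  have hk : ∀ p, evl x v p = 0 ↔ minpoly F x ∣ p := fun p => by
    rw [minpoly.dvd_iff]
    refine ⟨fun hp => LinearMap.ext fun w => ?_, fun hp => by rw [evl_apply, hp]; rfl⟩
    obtain ⟨r, rfl⟩ := h w
    rw [← evl_apply, ← evl_mul, mul_comm, evl_mul, hp, evl_apply, map_zero]; rfl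
  rw [charpoly_of_ker (minpoly.monic (LinearMap.isIntegral x)) h hk, hk]

theorem exists_cyc [FiniteDimensional F V] {f : F[X]} (hf : f.Monic)
    (hd : f.natDegree = finrank F V) :
    ∃ (x : End F V) (v : V), Function.Surjective (evl x v) ∧ x.charpoly = f := by
  have := H66.adjoinRoot_finite hf
  let e : AdjoinRoot f ≃ₗ[F] V := LinearEquiv.ofFinrankEq _ _ ((H66.finrank_adjoinRoot hf).trans hd)
  have he : ∀ w, e (LinearMap.mulLeft F (AdjoinRoot.root f) w) =
      e.conj (LinearMap.mulLeft F (AdjoinRoot.root f)) (e w) := fun w => by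
    rw [LinearEquiv.conj_apply_apply, e.symm_apply_apply]
  refine ⟨e.conj (LinearMap.mulLeft F (AdjoinRoot.root f)), e 1, fun w => ?_, by
    rw [e.charpoly_conj, H66.charpoly_mul_root hf]⟩
  obtain ⟨w, rfl⟩ := e.surjective w
  obtain ⟨p, rfl⟩ := evl_root_surj f w
  exact ⟨p, (evl_map (e : AdjoinRoot f →ₗ[F] V) he 1 p).symm⟩

theorem surj_restrict (x : End F V) (v : V) :
    Function.Surjective (evl (x.restrict (iv_range_evl x v)) ⟨v, 1, evl_one x v⟩) := by
  rintro ⟨_, p, rfl⟩
  exact ⟨p, Subtype.ext (evl_restrict _ _ p)⟩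

variable [Finite V]

theorem cp_range {x : End F V} {v : V} (h : Function.Surjective (evl x v)) {g k : F[X]}
    (hg : g.Monic) (hk : k.Monic) (e : x.charpoly = k * g) :
    cp x (LinearMap.range (evl x (evl x v g))) = k := by
  rw [cp_eq (iv_range_evl x _)]
  refine charpoly_of_ker hk (surj_restrict x _) fun p => ?_
  rw [← Subtype.coe_inj, evl_restrict, ZeroMemClass.coe_zero, ← evl_mul, evl_eq_zero_iff h, e,
    mul_dvd_mul_iff_right hg.ne_zero]

theorem exists_gen {x : End F V} {v : V} (h : Function.Surjective (evl x v)) {U : Submodule F V}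
    (hU : Iv x U) : ∃ g k : F[X], g.Monic ∧ k.Monic ∧ x.charpoly = k * g ∧
      U = LinearMap.range (evl x (evl x v g)) := by
  classical
  have hm : ∀ p, ∀ u ∈ U, evl x u p ∈ U := fun p u hu => by
    rw [← show _ = evl x u p from evl_restrict hU ⟨u, hu⟩ p]; exact Subtype.mem _
  let I : Ideal F[X] :=
    { carrier := {p | evl x v p ∈ U}
      add_mem' := fun {a b} ha hb => by
        change evl x v (a + b) ∈ U
        rw [map_add]; exact U.add_mem ha hb
      zero_mem' := by change evl x v 0 ∈ U; rw [map_zero]; exact U.zero_mem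
      smul_mem' := fun c p hp => by
        change evl x v (c * p) ∈ U
        rw [evl_mul]; exact hm c _ hp }
  have hI : ∀ p, p ∈ I ↔ normalize (Submodule.IsPrincipal.generator I) ∣ p := fun p => by
    rw [normalize_dvd_iff, Submodule.IsPrincipal.mem_iff_generator_dvd]
  have hf : x.charpoly ∈ I := by
    change evl x v _ ∈ U
    rw [(evl_eq_zero_iff h _).2 dvd_rfl]; exact U.zero_mem
  obtain ⟨k, hk⟩ := (hI _).1 hf
  have hg : (normalize (Submodule.IsPrincipal.generator I)).Monic := monic_normalize fun e => by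
    rw [e, normalize_zero, zero_mul] at hk
    exact (LinearMap.charpoly_monic x).ne_zero hk
  refine ⟨_, k, hg, hg.of_mul_monic_left (hk ▸ LinearMap.charpoly_monic x), by rw [hk, mul_comm],
    le_antisymm (fun u hu => ?_) ?_⟩
  · obtain ⟨p, rfl⟩ := h u
    obtain ⟨r, rfl⟩ := (hI p).1 hu
    exact ⟨r, by rw [← evl_mul, mul_comm]⟩
  · rintro _ ⟨p, rfl⟩
    exact hm p _ ((hI _).2 dvd_rfl)

theorem cp_inj {x : End F V} {v : V} (h : Function.Surjective (evl x v)) {U U' : Submodule F V}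
    (hU : Iv x U) (hU' : Iv x U') (e : cp x U = cp x U') : U = U' := by
  obtain ⟨g, k, hg, hk, e1, rfl⟩ := exists_gen h hU
  obtain ⟨g', k', hg', hk', e1', rfl⟩ := exists_gen h hU'
  rw [cp_range h hg hk e1, cp_range h hg' hk' e1'] at e
  subst e
  rw [mul_left_cancel₀ hk.ne_zero (e1.symm.trans e1')]

/-- `Λ` sums to `β` over monic divisors -/
def Mob (Λ β : F[X] → ℂ) : Prop := ∀ f : F[X], f.Monic → ∀ S : Finset F[X],
  (∀ g, g ∈ S ↔ g.Monic ∧ g ∣ f) → ∑ g ∈ S, Λ g = β f

theorem sum_cyc {Λ β : F[X] → ℂ} (hΛ : Mob Λ β) {x : End F V} {v : V}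
    (h : Function.Surjective (evl x v)) : ∑ U ∈ ivs x ⊤, Λ (cp x U) = β x.charpoly := by
  classical
  rw [← hΛ _ (LinearMap.charpoly_monic x) ((ivs x ⊤).image (cp x)), Finset.sum_image
    fun U hU U' hU' => cp_inj h (mem_ivs.1 hU).2 (mem_ivs.1 hU').2]
  intro k
  rw [Finset.mem_image]
  constructor
  · rintro ⟨U, hU, rfl⟩
    exact ⟨cp_monic _ _, _, by rw [← cp_top, cp_top_eq_mul (mem_ivs.1 hU).2]⟩
  · rintro ⟨hk, g, e⟩
    exact ⟨_, mem_ivs.2 ⟨le_top, iv_range_evl x _⟩,
      cp_range h (hk.of_mul_monic_left (e ▸ LinearMap.charpoly_monic x)) hk e⟩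

theorem sF_cyc {Λ β : F[X] → ℂ} (hΛ : Mob Λ β) {x : End F V} {v : V}
    (h : Function.Surjective (evl x v)) : sF β x ⊤ = Λ x.charpoly := by
  rw [sF_unique β x (fun U => Λ (cp x U)) ⊤ (iv_top _), cp_top]
  intro U _ hU
  obtain ⟨g, -, -, -, -, rfl⟩ := exists_gen h hU
  have h1 := sum_ivs_map (x := x.restrict hU) (x' := x) (f := Submodule.subtype _) (iv_top _)
    (by simp) (fun _ _ => rfl) fun W => Λ (cp x W)
  rw [Submodule.map_top, Submodule.range_subtype] at h1
  rw [h1, cp_eq hU, ← sum_cyc hΛ (surj_restrict x _)]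
  exact Finset.sum_congr rfl fun W hW => congrArg Λ
    (cp_map (f := Submodule.subtype _) (mem_ivs.1 hW).2 (by simp) fun _ _ => rfl)

open Classical in
theorem card_cyc [Fintype (End F V)] [Fintype V] {f : F[X]} (hf : f.Monic)
    (hd : f.natDegree = finrank F V) :
    (Finset.univ.filter fun z : End F V × V => Function.Surjective (evl z.1 z.2) ∧
      z.1.charpoly = f).card = Nat.card (V ≃ₗ[F] V) := by
  obtain ⟨x, v, h, e⟩ := exists_cyc hf hd
  rw [← Fintype.card_coe, ← Nat.card_eq_fintype_card]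
  have hc : ∀ (γ : V ≃ₗ[F] V) w, γ (x w) = γ.conj x (γ w) := fun γ w => by
    rw [LinearEquiv.conj_apply_apply, γ.symm_apply_apply]
  have he : ∀ (γ : V ≃ₗ[F] V) p, γ (evl x v p) = evl (γ.conj x) (γ v) p := fun γ p =>
    evl_map (γ : V →ₗ[F] V) (hc γ) v p
  symm
  refine Nat.card_eq_of_bijective (fun γ => ⟨(γ.conj x, γ v), Finset.mem_filter.2
    ⟨Finset.mem_univ _, fun w => ?_, by rw [γ.charpoly_conj, e]⟩⟩) ⟨fun γ δ hγ => ?_, ?_⟩
  · obtain ⟨w, rfl⟩ := γ.surjective w
    obtain ⟨p, rfl⟩ := h w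
    exact ⟨p, (he γ p).symm⟩
  · obtain ⟨h1, h2⟩ := Prod.ext_iff.1 (congrArg Subtype.val hγ)
    refine LinearEquiv.ext fun w => ?_
    obtain ⟨p, rfl⟩ := h w
    rw [he, he, show γ.conj x = δ.conj x from h1, show γ v = δ v from h2]
  · rintro ⟨⟨y, u⟩, hz⟩
    obtain ⟨h1, h2⟩ := (Finset.mem_filter.1 hz).2
    obtain ⟨γ, h3, h4⟩ := iso_of_ker h h1 fun p => by
      rw [evl_eq_zero_iff h, evl_eq_zero_iff h1, e, h2]
    refine ⟨γ, Subtype.ext (Prod.ext (LinearMap.ext fun w => ?_) h3)⟩
    obtain ⟨w, rfl⟩ := γ.surjective w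
    exact (hc γ w).symm.trans (h4 w)

theorem range_evl_add {x n : End F V} {W : Submodule F V} (h : Iv x W) (hn : n ∈ nset W W) (v : V) :
    LinearMap.range (evl (x + n) v) = W ↔ LinearMap.range (evl x v) = W := by
  by_cases hv : v ∈ W
  · have h' := (iv_add_iff (x := x) hn).2 h
    have : evl (x + n) v = evl x v := LinearMap.ext fun p => by
      rw [← show _ = evl x v p from evl_restrict h ⟨v, hv⟩ p,
        ← show _ = evl (x + n) v p from evl_restrict h' ⟨v, hv⟩ p]
      congr 3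
      exact LinearMap.ext fun w => Subtype.ext (show (x + n) w = x w by
        rw [LinearMap.add_apply, (mem_nset.1 hn).2 w w.2, add_zero])
    rw [this]
  · exact iff_of_false (fun e => hv (e ▸ ⟨1, evl_one _ _⟩)) fun e => hv (e ▸ ⟨1, evl_one _ _⟩)

/-- the cyclic vector trick -/
theorem sum_sF_mul {Λ β : F[X] → ℂ} (hβ : Adv β) (hΛ : Mob Λ β) [Fintype (End F V)] [Nontrivial V]
    (c : F[X] → ℂ) (S : Finset F[X]) (hS : ∀ f, f ∈ S ↔ f.Monic ∧ f.natDegree = finrank F V) :
    ((Nat.card V : ℂ) - 1) * ∑ x : End F V, sF β x ⊤ * c x.charpoly =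
      Nat.card (V ≃ₗ[F] V) * ∑ f ∈ S, Λ f * c f := by
  classical
  have := Fintype.ofFinite V
  have := Fintype.ofFinite (Submodule F V)
  let T : V → Submodule F V → ℂ := fun v W =>
    ∑ x : End F V, sF β x ⊤ * if LinearMap.range (evl x v) = W then c x.charpoly else 0
  have e1 : ∀ v, ∑ x : End F V, sF β x ⊤ * c x.charpoly = T v ⊥ + T v ⊤ := by
    intro v
    have : ∑ x : End F V, sF β x ⊤ * c x.charpoly = ∑ W, T v W := by
      rw [Finset.sum_comm]
      refine Finset.sum_congr rfl fun x _ => ?_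
      rw [← Finset.mul_sum, Finset.sum_ite_eq, if_pos (Finset.mem_univ _)]
    rw [this]
    refine Finset.sum_eq_add _ _ bot_ne_top (fun W _ hW => ?_) (by simp) (by simp)
    refine cusp_orth hβ hW.1 hW.2 _ (fun x hx => if_neg fun e => hx (by rw [← e]; exact iv_range_evl x v))
      fun x hx n hn => ?_
    rw [charpoly_add hn hx, if_congr (range_evl_add hx hn v) rfl rfl]
  have e2 : ∑ v, T v ⊥ = ∑ x : End F V, sF β x ⊤ * c x.charpoly := by
    rw [Finset.sum_eq_single 0 (fun v _ hv => Finset.sum_eq_zero fun x _ => by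
      rw [if_neg fun e => hv ((Submodule.mem_bot F).1 (by rw [← e]; exact ⟨1, evl_one _ _⟩)),
        mul_zero]) (by simp)]
    refine Finset.sum_congr rfl fun x _ => ?_
    rw [if_pos (LinearMap.range_eq_bot.2 (LinearMap.ext fun p => by simp [evl_apply]))]
  have e3 : ∑ v, T v ⊤ = Nat.card (V ≃ₗ[F] V) * ∑ f ∈ S, Λ f * c f := by
    rw [Finset.sum_comm, ← Finset.sum_product', Finset.univ_product_univ,
      ← Finset.sum_fiberwise_of_maps_to (t := S) (g := fun z : End F V × V => z.1.charpoly)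
        fun z _ => (hS _).2 ⟨LinearMap.charpoly_monic _, LinearMap.charpoly_natDegree _⟩,
      Finset.mul_sum]
    refine Finset.sum_congr rfl fun f hf => ?_
    rw [← card_cyc ((hS f).1 hf).1 ((hS f).1 hf).2, ← nsmul_eq_mul, ← Finset.sum_const,
      Finset.sum_filter, Finset.sum_filter]
    refine Finset.sum_congr rfl fun z _ => ?_
    by_cases h1 : z.1.charpoly = f
    · by_cases h2 : Function.Surjective (evl z.1 z.2)
      · rw [if_pos h1, if_pos (LinearMap.range_eq_top.2 h2), if_pos ⟨h2, h1⟩, sF_cyc hΛ h2, h1]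
      · rw [if_pos h1, if_neg fun h => h2 (LinearMap.range_eq_top.1 h), if_neg fun h => h2 h.1,
          mul_zero]
    · rw [if_neg h1, if_neg fun h => h1 h.2]
  rw [← e3, sub_mul, one_mul, sub_eq_iff_eq_add', Nat.card_eq_fintype_card, ← nsmul_eq_mul,
    ← Finset.card_univ, ← Finset.sum_const, Finset.sum_congr rfl fun v _ => e1 v,
    Finset.sum_add_distrib, e2]

theorem sum_sF_sF {β : F[X] → ℂ} (hβ : Adv β) {β' : F[X] → ℂ} (hβ' : β' 1 = 0)
    [Fintype (End F V)] [Nontrivial V] (c : F[X] → ℂ) :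
    ∑ x : End F V, sF β x ⊤ * (sF β' x ⊤ * c x.charpoly) =
      ∑ x : End F V, sF β x ⊤ * (β' x.charpoly * c x.charpoly) := by
  classical
  have := Fintype.ofFinite (Submodule F V)
  have : ∑ x : End F V, sF β x ⊤ * (β' x.charpoly * c x.charpoly) = ∑ W, ∑ x : End F V,
      sF β x ⊤ * ((if Iv x W then sF β' x W else 0) * c x.charpoly) := by
    rw [Finset.sum_comm]
    refine Finset.sum_congr rfl fun x _ => ?_
    rw [← Finset.mul_sum, ← Finset.sum_mul, ← sum_ivs_top, sum_sF β' (iv_top _), cp_top]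
  rw [this, Finset.sum_eq_single (⊤ : Submodule F V) (fun W _ hW => ?_) (by simp)]
  · exact Finset.sum_congr rfl fun x _ => by rw [if_pos (iv_top _)]
  by_cases h0 : W = ⊥
  · exact Finset.sum_eq_zero fun x _ => by rw [h0, sF_bot, hβ', ite_self, zero_mul, mul_zero]
  refine cusp_orth hβ h0 hW _ (fun x hx => by rw [if_neg hx, zero_mul]) fun x hx n hn => ?_
  rw [charpoly_add hn hx, if_pos hx, if_pos ((iv_add_iff hn).2 hx), sF_congr β' hx fun w hw => by
    rw [LinearMap.add_apply, (mem_nset.1 hn).2 w hw, add_zero]]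

end Cfsg.Agent.H65.Cu
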