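import Cfsg.Agent.H65.CuD
import Cfsg.Agent.H67.Eig

/-!
# Sums over eigenvalues and the von Mangoldt function of `F[X]`
-/

set_option autoImplicit false

open Polynomial Module

namespace Cfsg.Agent.H65.Cu

variable (F : Type*) [Field F] {k : Type*} [Field k] [Algebra F k]

/-- the sum of `θ` over the roots -/
noncomputable def bet (θ : k → ℂ) (f : F[X]) : ℂ := ((f.aroots k).map θ).sum

theorem adv_bet (θ : k → ℂ) : Adv (bet F θ) := fun f g hf hg => by
  rw [bet, aroots_mul (hf.mul hg).ne_zero, Multiset.map_add, Multiset.sum_add]; rfl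

theorem bet_ringHom (τ : ℂ →+* ℂ) (θ : k → ℂ) (f : F[X]) :
    bet F (fun a => τ (θ a)) f = τ (bet F θ f) := by
  rw [bet, bet, map_multiset_sum, Multiset.map_map]; rfl

theorem bet_one {θ : k → ℂ} (h : θ 1 = 1) (j : ℕ) : bet F θ ((X - 1) ^ j) = j := by
  rw [bet, aroots_pow, ← C_1, aroots_X_sub_C, map_one, Multiset.map_nsmul, Multiset.sum_nsmul]
  simp [h]

variable {F}

/-- `f` is a positive power of the minimal polynomial of `a` -/
def Prim (a : k) (f : F[X]) : Prop := ∃ j, f = minpoly F a ^ (j + 1)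

open Classical in
/-- the von Mangoldt function -/
noncomputable def lam (θ : k → ℂ) (f : F[X]) : ℂ :=
  ∑ a ∈ (f.aroots k).toFinset, if Prim a f then θ a else 0

theorem isIntegral_of_mem {f : F[X]} {a : k} (h : a ∈ f.aroots k) : IsIntegral F a :=
  IsAlgebraic.isIntegral ⟨f, (mem_aroots.1 h).1, (mem_aroots.1 h).2⟩

theorem exists_decomp {f : F[X]} (hf : f ≠ 0) {a : k} (ha : IsIntegral F a) :
    ∃ m r, f = minpoly F a ^ m * r ∧ aeval a r ≠ 0 := by
  obtain ⟨r, h1, h2⟩ := (FiniteMultiplicity.of_prime_left (minpoly.prime ha) hf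
    ).exists_eq_pow_mul_and_not_dvd
  exact ⟨_, r, h1, fun h => h2 (minpoly.dvd F a h)⟩

theorem mem_aroots_prim {f : F[X]} {a : k} (ha : IsIntegral F a) (h : Prim a f) :
    a ∈ f.aroots k := by
  obtain ⟨j, rfl⟩ := h
  exact mem_aroots.2 ⟨pow_ne_zero _ (minpoly.ne_zero ha), by simp⟩

variable [Fintype F]

theorem count_decomp [DecidableEq k] {a : k} (ha : IsIntegral F a) (m : ℕ) {r : F[X]}
    (hr : aeval a r ≠ 0) : ((minpoly F a ^ m * r).aroots k).count a = m := by
  have h0 : r ≠ 0 := by rintro rfl; exact hr (map_zero _)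
  have h1 : ((minpoly F a).aroots k).count a = 1 := by
    refine Multiset.count_eq_one_of_mem (nodup_roots ?_) (mem_aroots.2 ⟨minpoly.ne_zero ha, by simp⟩)
    exact (PerfectField.separable_of_irreducible (minpoly.irreducible ha)).map
  rw [aroots_mul (mul_ne_zero (pow_ne_zero _ (minpoly.ne_zero ha)) h0), aroots_pow,
    Multiset.count_add, Multiset.count_nsmul, h1, mul_one,
    Multiset.count_eq_zero.2 fun h => hr (mem_aroots.1 h).2, add_zero]

theorem pow_dvd_iff [DecidableEq k] {f : F[X]} (hf : f ≠ 0) {a : k} (ha : IsIntegral F a) (j : ℕ) :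
    minpoly F a ^ j ∣ f ↔ j ≤ (f.aroots k).count a := by
  constructor
  · rintro ⟨g, rfl⟩
    obtain ⟨m, r, rfl, hr⟩ := exists_decomp (right_ne_zero_of_mul hf) ha
    rw [← mul_assoc, ← pow_add, count_decomp ha _ hr]
    exact Nat.le_add_right _ _
  · obtain ⟨m, r, rfl, hr⟩ := exists_decomp hf ha
    rw [count_decomp ha _ hr]
    exact fun h => (pow_dvd_pow _ h).mul_right _

omit [Fintype F] in
theorem pow_minpoly_inj {a : k} (ha : IsIntegral F a) {i j : ℕ}
    (h : (minpoly F a ^ i).natDegree = (minpoly F a ^ j).natDegree) : i = j := by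
  rw [natDegree_pow, natDegree_pow] at h
  exact Nat.eq_of_mul_eq_mul_right (minpoly.natDegree_pos ha) h

theorem mob_lam (θ : k → ℂ) : Mob (lam θ) (bet F θ) := by
  classical
  intro f hf S hS
  have e : ∀ g ∈ S, lam θ g = ∑ a ∈ (f.aroots k).toFinset, if Prim a g then θ a else 0 := by
    intro g hg
    obtain ⟨h1, h2⟩ := (hS g).1 hg
    refine Finset.sum_subset (fun a ha => ?_) fun a ha ha' => if_neg fun h => ha' ?_
    · rw [Multiset.mem_toFinset, mem_aroots] at ha ⊢
      exact ⟨hf.ne_zero, aeval_eq_zero_of_dvd_aeval_eq_zero h2 ha.2⟩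
    · exact Multiset.mem_toFinset.2
        (mem_aroots_prim (isIntegral_of_mem (Multiset.mem_toFinset.1 ha)) h)
  rw [Finset.sum_congr rfl e, Finset.sum_comm, bet, Finset.sum_multiset_map_count]
  refine Finset.sum_congr rfl fun a ha => ?_
  have hi := isIntegral_of_mem (Multiset.mem_toFinset.1 ha)
  rw [← Finset.sum_filter, Finset.sum_const]
  congr 1
  rw [← Finset.card_range ((f.aroots k).count a)]
  symm
  refine Finset.card_bij (fun j _ => minpoly F a ^ (j + 1)) (fun j hj => ?_)
    (fun i _ j _ h => by simpa using pow_minpoly_inj hi (congrArg natDegree h)) fun g hg => ?_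
  · exact Finset.mem_filter.2 ⟨(hS _).2 ⟨(minpoly.monic hi).pow _,
      (pow_dvd_iff hf.ne_zero hi _).2 (Finset.mem_range.1 hj)⟩, j, rfl⟩
  · obtain ⟨h1, j, rfl⟩ := Finset.mem_filter.1 hg
    exact ⟨j, Finset.mem_range.2 ((pow_dvd_iff hf.ne_zero hi _).1 ((hS _).1 h1).2), rfl⟩

variable (F) in
/-- the Frobenius orbit, traversed `n` times a step -/
def forb (n : ℕ) (a : k) : Multiset k := (Multiset.range n).map fun i => a ^ Fintype.card F ^ i

omit [Algebra F k] [Field F] in
theorem iter_frob (a : k) (i : ℕ) :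
    (fun x : k => x ^ Fintype.card F)^[i] a = a ^ Fintype.card F ^ i := by
  rw [pow_iterate]

theorem aeval_frob (a : k) (i : ℕ) (r : F[X]) :
    aeval (a ^ Fintype.card F ^ i) r = aeval a r ^ Fintype.card F ^ i := by
  induction i with
  | zero => simp
  | succ i ih =>
    rw [pow_succ, pow_mul, pow_mul, ← ih]
    exact aeval_algHom_apply (FiniteField.frobeniusAlgHom F k) _ r

variable [IsAlgClosed k]

theorem aroots_map_frob (f : F[X]) :
    (f.aroots k).map (fun x => x ^ Fintype.card F) = f.aroots k := by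
  have h := roots_map_of_injective_of_card_eq_natDegree
    (f := (FiniteField.frobeniusAlgHom F k : k →+* k)) (FiniteField.frobeniusAlgHom F k).injective
    (IsAlgClosed.card_roots_eq_natDegree (p := f.map (algebraMap F k)))
  rw [Polynomial.map_map, AlgHom.comp_algebraMap] at h
  exact h

theorem aroots_of_prim {f : F[X]} {a : k} (ha : a ∈ f.aroots k) (h : Prim a f) :
    f.aroots k = forb F f.natDegree a ∧ a ^ Fintype.card F ^ f.natDegree = a := by
  have hc : (f.aroots k).card = f.natDegree := by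
    rw [aroots_def, IsAlgClosed.card_roots_eq_natDegree, natDegree_map]
  have hp := H67.mem_periodicPts_of_map_eq H67.frob_injective (aroots_map_frob f) ha
  obtain ⟨P, h1, -, h2⟩ := H67.exists_poly_of_map_frob (F := F)
    (H67.map_orb (φ := fun x : k => x ^ Fintype.card F) a)
  have h3 : ∀ x, aeval x P = 0 ↔ x ∈ H67.orb (fun x : k => x ^ Fintype.card F) a := fun x => by
    rw [← eval_map_algebraMap, h2, ← IsRoot, ← mem_roots (monic_multisetProd_X_sub_C _).ne_zero,
      roots_multiset_prod_X_sub_C]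
  have := H67.eq_range_map_iterate H67.frob_injective (aroots_map_frob f) ha fun x hx => by
    rw [← H67.mem_orb_iff hp, ← h3]
    obtain ⟨j, rfl⟩ := h
    have h4 := (mem_aroots.1 hx).2
    rw [map_pow] at h4
    exact aeval_eq_zero_of_dvd_aeval_eq_zero
      (minpoly.dvd F a ((h3 a).2 ((H67.mem_orb_iff hp a).2 ⟨0, rfl⟩))) (eq_zero_of_pow_eq_zero h4)
  simpa only [hc, iter_frob, forb] using this

theorem exists_prim {n : ℕ} (hn : n ≠ 0) {a : k} (ha : a ^ Fintype.card F ^ n = a) :
    IsIntegral F a ∧ ∃ f : F[X], f.Monic ∧ f.natDegree = n ∧ Prim a f := by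
  have h0 := H67.map_range_iterate (φ := fun x : k => x ^ Fintype.card F) (a := a) (d := n)
    (by rw [iter_frob, ha])
  obtain ⟨P, h1, h2, h3⟩ := H67.exists_poly_of_map_frob (F := F) h0
  have h4 : P.aroots k = forb F n a := by
    rw [aroots_def, h3, roots_multiset_prod_X_sub_C]; simp only [iter_frob, forb]
  have h5 : a ∈ P.aroots k := by
    rw [h4]; exact Multiset.mem_map.2 ⟨0, Multiset.mem_range.2 (Nat.pos_of_ne_zero hn), by simp⟩
  have hi := isIntegral_of_mem h5
  refine ⟨hi, P, h1, by simpa using h2, ?_⟩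
  obtain ⟨m, r, e, hr⟩ := exists_decomp h1.ne_zero hi
  have hm : r.Monic := ((minpoly.monic hi).pow m).of_mul_monic_left (e ▸ h1)
  have hr1 : r = 1 := by
    by_contra h
    obtain ⟨x, hx⟩ := IsAlgClosed.exists_aeval_eq_zero k r fun h' =>
      h (hm.natDegree_eq_zero.1 (natDegree_eq_zero_iff_degree_le_zero.2 h'.le))
    have : x ∈ forb F n a := by
      rw [← h4]; exact mem_aroots.2 ⟨h1.ne_zero, by rw [e, map_mul, hx, mul_zero]⟩
    obtain ⟨i, -, rfl⟩ := Multiset.mem_map.1 this
    rw [aeval_frob] at hx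
    exact hr (eq_zero_of_pow_eq_zero hx)
  rw [hr1, mul_one] at e
  cases m with
  | zero => rw [e] at h5; simp at h5
  | succ m => exact ⟨m, e⟩

theorem sum_lam_mul (θ : k → ℂ) (c : Multiset k → ℂ) {n : ℕ} (hn : n ≠ 0) (S : Finset F[X])
    (hS : ∀ f, f ∈ S ↔ f.Monic ∧ f.natDegree = n) (R : Finset k)
    (hR : ∀ a, a ∈ R ↔ a ^ Fintype.card F ^ n = a) :
    ∑ f ∈ S, lam θ f * c (f.aroots k) = ∑ a ∈ R, θ a * c (forb F n a) := by
  classical
  have e : ∀ f ∈ S, lam θ f * c (f.aroots k) =
      ∑ a ∈ R, if Prim a f then θ a * c (forb F n a) else 0 := by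
    intro f hf
    obtain ⟨h1, rfl⟩ := (hS f).1 hf
    rw [lam, ← Finset.sum_filter, ← Finset.sum_filter, Finset.sum_mul]
    refine Finset.sum_congr ?_ fun a ha => ?_
    · ext a
      rw [Finset.mem_filter, Finset.mem_filter, Multiset.mem_toFinset, hR]
      exact and_congr_left fun h => ⟨fun ha => (aroots_of_prim ha h).2,
        fun ha => mem_aroots_prim (exists_prim hn ha).1 h⟩
    · obtain ⟨h2, h3⟩ := Finset.mem_filter.1 ha
      rw [(aroots_of_prim (mem_aroots_prim (exists_prim hn ((hR a).1 h2)).1 h3) h3).1]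
  rw [Finset.sum_congr rfl e, Finset.sum_comm]
  refine Finset.sum_congr rfl fun a ha => ?_
  obtain ⟨hi, f, h1, h2, h3⟩ := exists_prim hn ((hR a).1 ha)
  rw [Finset.sum_eq_single_of_mem f ((hS f).2 ⟨h1, h2⟩), if_pos h3]
  intro g hg hne
  refine if_neg fun ⟨j, hj⟩ => hne ?_
  obtain ⟨i, hi'⟩ := h3
  rw [hj, hi', pow_minpoly_inj hi (i := j + 1) (j := i + 1) (by rw [← hj, ← hi', h2, ((hS g).1 hg).2])]

open scoped ComplexConjugate in
open Classical in
/-- the inner product formula -/
theorem inner_formula {V : Type*} [AddCommGroup V] [Module F V] [Finite V] [Nontrivial V]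
    [Fintype (End F V)] (θ θ' : k → ℂ) (R : Finset k)
    (hR : ∀ a, a ∈ R ↔ a ^ (Fintype.card F ^ finrank F V - 1) = 1) :
    ((Nat.card V : ℂ) - 1) * ∑ x : End F V,
      (if IsUnit x then sF (bet F θ) x ⊤ * conj (sF (bet F θ') x ⊤) else 0) =
      Nat.card (V ≃ₗ[F] V) * ∑ a ∈ R, θ a *
        ∑ i ∈ Finset.range (finrank F V), conj (θ' (a ^ Fintype.card F ^ i)) := by
  have hn : finrank F V ≠ 0 := Module.finrank_pos.ne'
  have hq : 1 < Fintype.card F ^ finrank F V := Nat.one_lt_pow hn Fintype.one_lt_card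
  let c : Multiset k → ℂ := fun s => if 0 ∈ s then 0 else 1
  have e : ∀ x : End F V, (if IsUnit x then sF (bet F θ) x ⊤ * conj (sF (bet F θ') x ⊤) else 0) =
      sF (bet F θ) x ⊤ * (sF (bet F fun a => conj (θ' a)) x ⊤ * c (x.charpoly.aroots k)) := by
    intro x
    have h1 : (0 : k) ∈ x.charpoly.aroots k ↔ ¬ IsUnit x := by
      rw [mem_aroots, and_iff_right (LinearMap.charpoly_monic x).ne_zero, ← coeff_zero_eq_aeval_zero',
        map_eq_zero, LinearMap.isUnit_iff_isUnit_det, LinearMap.det_eq_sign_charpoly_coeff]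
      simp
    rw [show (bet F fun a => conj (θ' a)) = fun f => conj (bet F θ' f) from
      funext (bet_ringHom F _ θ'), sF_ringHom]
    by_cases h : IsUnit x
    · rw [if_pos h, show c _ = 1 from if_neg fun h' => h1.1 h' h, mul_one]
    · rw [if_neg h, show c _ = 0 from if_pos (h1.2 h), mul_zero, mul_zero]
  obtain ⟨S, hS⟩ : ∃ S : Finset F[X], ∀ f, f ∈ S ↔ f.Monic ∧ f.natDegree = finrank F V := by
    have : Finite (degreeLT F (finrank F V + 1)) := Finite.of_equiv _ (degreeLTEquiv F _).symm.toEquiv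
    have h : {f : F[X] | f.Monic ∧ f.natDegree = finrank F V}.Finite :=
      (Set.toFinite (degreeLT F (finrank F V + 1) : Set F[X])).subset fun f hf =>
        mem_degreeLT.2 (degree_le_natDegree.trans_lt (by rw [hf.2]; exact_mod_cast Nat.lt_succ_self _))
    exact ⟨h.toFinset, by simp⟩
  have h0 : (0 : k) ∉ R := by
    rw [hR, zero_pow (by omega)]; exact zero_ne_one
  rw [Finset.sum_congr rfl fun x _ => e x,
    sum_sF_sF (adv_bet F θ) (adv_bet F _).one fun f => c (f.aroots k),
    sum_sF_mul (adv_bet F θ) (mob_lam θ) (fun f => bet F (fun a => conj (θ' a)) f * c (f.aroots k))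
      S hS]
  congr 1
  refine (sum_lam_mul θ (fun s => (s.map fun a => conj (θ' a)).sum * c s) hn S hS (insert 0 R)
    fun a => ?_).trans ?_
  · rw [Finset.mem_insert, hR]
    by_cases h : a = 0
    · rw [h, zero_pow (by omega)]; simp
    · rw [or_iff_right h, ← mul_left_inj' h, ← pow_succ, one_mul, Nat.sub_add_cancel hq.le]
  · rw [Finset.sum_insert h0, show c (forb F _ 0) = 0 from if_pos (Multiset.mem_map.2
      ⟨0, Multiset.mem_range.2 (Nat.pos_of_ne_zero hn), by simp⟩), mul_zero, mul_zero, zero_add]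
    refine Finset.sum_congr rfl fun a ha => ?_
    rw [show c (forb F _ a) = 1 from if_neg fun h => ?_, mul_one, forb, Multiset.map_map]
    · rfl
    · obtain ⟨i, -, hi⟩ := Multiset.mem_map.1 h
      exact h0 (eq_zero_of_pow_eq_zero hi ▸ ha)

end Cfsg.Agent.H65.Cu
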