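import Cfsg.Agent.H65.CuE
import Cfsg.Agent.H65.BLift
import Cfsg.Agent.H6.IndRep
import Cfsg.Agent.H7.Galois

/-!
# Green's cuspidal characters
-/

set_option autoImplicit false

open Polynomial Module

namespace Cfsg.Agent.H65.Cu

universe v

open MulAction in
theorem virt_fix_sum {G X : Type*} [Group G] [Finite G] [Fintype X] [DecidableEq X] [MulAction G X]
    (φ : G → X → ℂ) (h1 : ∀ g h x, g • x = x → φ (h * g * h⁻¹) (h • x) = φ g x)
    (h2 : ∀ x, IsGeneralizedCharacter (stabilizer G x) fun g => φ g x) :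
    IsGeneralizedCharacter G fun g => ∑ x, if g • x = x then φ g x else 0 := by
  classical
  have := Fintype.ofFinite G
  have := Fintype.ofFinite (orbitRel.Quotient G X)
  convert H53.virt_sum Finset.univ _ fun (ω : orbitRel.Quotient G X) _ =>
    H6.isGeneralizedCharacter_indFun _ (h2 ω.out) using 1
  funext g
  rw [Finset.sum_apply, ← Finset.sum_fiberwise (g := fun x => (Quotient.mk'' x :
    orbitRel.Quotient G X))]
  refine Finset.sum_congr rfl fun ω _ => ?_
  have e : ∀ y : G, extendByZero (stabilizer G ω.out) (fun g => φ g ω.out) (y⁻¹ * g * y) =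
      if g • y • ω.out = y • ω.out then φ g (y • ω.out) else 0 := fun y => by
    have h3 : y⁻¹ * g * y ∈ stabilizer G ω.out ↔ g • y • ω.out = y • ω.out := by
      rw [mem_stabilizer_iff, mul_smul, mul_smul, inv_smul_eq_iff]
    split_ifs with h
    · rw [H6.extendByZero_of_mem _ _ (h3.2 h), ← h1 _ y _ (h3.2 h)]
      congr 1; group
    · exact H6.extendByZero_of_notMem _ _ fun h' => h (h3.1 h')
  rw [H6.indFun_apply, Finset.sum_congr rfl fun y _ => e y,
    ← Finset.sum_fiberwise_of_maps_to (s := Finset.univ) (t := Finset.univ.filter fun x =>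
      (Quotient.mk'' x : orbitRel.Quotient G X) = ω) (g := fun y : G => y • ω.out) fun y _ =>
      Finset.mem_filter.2 ⟨Finset.mem_univ _, by
        conv_rhs => rw [← ω.out_eq']
        exact Quotient.sound' (mem_orbit _ y)⟩, Finset.mul_sum]
  refine Finset.sum_congr rfl fun x hx => ?_
  have h4 := (Finset.mem_filter.1 hx).2
  rw [← ω.out_eq'] at h4
  obtain ⟨y₀, rfl⟩ : x ∈ orbit G ω.out := Quotient.exact' h4
  rw [Finset.sum_congr rfl fun y hy => by rw [(Finset.mem_filter.1 hy).2], Finset.sum_const,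
    nsmul_eq_mul, ← mul_assoc]
  have h5 : (Finset.univ.filter fun y : G => y • ω.out = y₀ • ω.out).card =
      Nat.card (stabilizer G ω.out) := by
    rw [Nat.card_eq_fintype_card, Fintype.card_subtype]
    refine Finset.card_equiv (Equiv.mulLeft y₀⁻¹) fun y => ?_
    simp [mul_smul, inv_smul_eq_iff]
  rw [h5, inv_mul_cancel₀ (H6.card_ne_zero_complex _), one_mul]

variable {F : Type*} [Field F]

/-- the action of the general linear group on subspaces -/
abbrev subAct (V : Type*) [AddCommGroup V] [Module F V] : MulAction (End F V)ˣ (Submodule F V) where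
  smul g W := W.map (g : End F V)
  one_smul W := Submodule.map_id W
  mul_smul _ _ W := Submodule.map_comp _ _ W

theorem map_eq_iff_iv {V : Type*} [AddCommGroup V] [Module F V] [Finite V] (g : (End F V)ˣ)
    (W : Submodule F V) : W.map (g : End F V) = W ↔ Iv (g : End F V) W := by
  refine ⟨fun h v hv => h ▸ ⟨v, hv, rfl⟩, fun h => Submodule.eq_of_le_of_finrank_eq
    (Submodule.map_le_iff_le_comap.2 h) ?_⟩
  exact (LinearMap.GeneralLinearGroup.toLinearEquiv g).finrank_map_eq W

theorem virt_sF_aux {β : F[X] → ℂ} (hb : ∀ (V : Type v) [AddCommGroup V] [Module F V] [Finite V],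
    IsGeneralizedCharacter (End F V)ˣ fun g => β (g : End F V).charpoly) (d : ℕ) :
    ∀ (V : Type v) [AddCommGroup V] [Module F V] [Finite V], finrank F V = d →
    IsGeneralizedCharacter (End F V)ˣ fun g => sF β (g : End F V) ⊤ := by
  induction d using Nat.strong_induction_on with
  | _ d ih =>
  intro V _ _ _ hd
  classical
  have := Fintype.ofFinite (Submodule F V)
  let _ := subAct (F := F) V
  have hs : ∀ (g : (End F V)ˣ) (W : Submodule F V), g • W = W.map (g : End F V) := fun _ _ => rfl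
  have key := virt_fix_sum (fun (g : (End F V)ˣ) (W : Submodule F V) =>
    if W = ⊤ then 0 else sF β (g : End F V) W) (fun g h W hW => ?_) fun W => ?_
  · convert H53.virt_sub (hb V) key using 1
    funext g
    rw [sF_eq, cp_top, Pi.sub_apply]
    congr 1
    have : ivp (g : End F V) ⊤ = Finset.univ.filter fun W => g • W = W ∧ W ≠ ⊤ := by
      ext W; simp [mem_ivp, hs, map_eq_iff_iv, lt_top_iff_ne_top, and_comm]
    rw [this, Finset.sum_filter]
    refine Finset.sum_congr rfl fun W _ => ?_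
    by_cases h1 : g • W = W <;> by_cases h2 : W = ⊤ <;> simp [h1, h2]
  · have h1 : h • W = ⊤ ↔ W = ⊤ := by
      have : h • (⊤ : Submodule F V) = ⊤ := (map_eq_iff_iv h ⊤).2 (iv_top _)
      conv_lhs => rw [← this, smul_left_cancel_iff]
    rw [if_congr h1 rfl rfl]
    congr 1
    refine sF_map β ((map_eq_iff_iv g W).1 hW) ?_ fun w _ => ?_
    · rw [(LinearMap.ker_eq_bot (f := (h : End F V))).2
        (LinearMap.GeneralLinearGroup.toLinearEquiv h).injective]
      exact disjoint_bot_right
    · change (↑h * ↑g : End F V) w = (↑(h * g * h⁻¹) * ↑h : End F V) w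
      rw [← Units.val_mul, ← Units.val_mul, inv_mul_cancel_right]
  · by_cases h : W = ⊤
    · simp only [if_pos h]; exact H53.virt_zero
    · simp only [if_neg h]
      let r : MulAction.stabilizer (End F V)ˣ W →* End F W :=
        { toFun g := ((g : (End F V)ˣ) : End F V).restrict ((map_eq_iff_iv _ W).1 g.2)
          map_one' := rfl
          map_mul' _ _ := rfl }
      convert H53.virt_comp (ih _ (hd ▸ Submodule.finrank_lt h) W rfl) r.toHomUnits using 1
      funext g
      exact sF_restrict β ((map_eq_iff_iv _ W).1 g.2)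

open H32 in
theorem virt_sF {M : Ideal AlgInt} [M.IsMaximal] {p : ℕ} (hM : IsPModular p M)
    [Algebra F (Res M)] (V : Type v) [AddCommGroup V] [Module F V] [Finite V] :
    IsGeneralizedCharacter (End F V)ˣ fun g => sF (bet F (teich (M := M) p)) (g : End F V) ⊤ := by
  refine virt_sF_aux (fun V _ _ _ => ?_) _ V rfl
  classical
  let b := Module.finBasis F V
  convert brauer_lift hM (((algebraMap F (Res M)).mapMatrix.toMonoidHom.comp
    (LinearMap.toMatrixAlgEquiv b).toMonoidHom).comp (Units.coeHom (End F V))) using 2 with g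
  rw [bet, aroots_def, ← LinearMap.charpoly_toMatrix _ b, ← Matrix.charpoly_map]
  rfl

theorem sum_units {R : Type*} [Monoid R] [Fintype R] [Fintype Rˣ] [DecidablePred (IsUnit : R → Prop)]
    (f : R → ℂ) : ∑ g : Rˣ, f g = ∑ x, if IsUnit x then f x else 0 := by
  rw [← Finset.sum_filter]
  refine Finset.sum_bij (fun g _ => (g : R)) (by simp) (fun _ _ _ _ h => Units.ext h)
    (fun x hx => ?_) fun _ _ => rfl
  obtain ⟨g, rfl⟩ := (Finset.mem_filter.1 hx).2
  exact ⟨g, Finset.mem_univ _, rfl⟩

open scoped ComplexConjugate in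
theorem sum_root_pow {N : ℕ} {ζ : ℂ} (hζ : IsPrimitiveRoot ζ N) (hN : N ≠ 0) (a b : ℕ) :
    ∑ i ∈ Finset.range N, (ζ ^ i) ^ a * conj ((ζ ^ i) ^ b) =
      if a ≡ b [MOD N] then (N : ℂ) else 0 := by
  have h0 : ζ ≠ 0 := hζ.ne_zero hN
  have h1 : conj ζ = ζ⁻¹ := (Complex.inv_eq_conj (hζ.norm'_eq_one hN)).symm
  have e : ∀ i, (ζ ^ i) ^ a * conj ((ζ ^ i) ^ b) = (ζ ^ a * (ζ ^ b)⁻¹) ^ i := fun i => by
    rw [map_pow, map_pow, h1, mul_pow, ← pow_mul, ← pow_mul, ← pow_mul, ← inv_pow, ← pow_mul,
      mul_comm i, mul_comm i]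
  have h2 : ζ ^ a * (ζ ^ b)⁻¹ = 1 ↔ a ≡ b [MOD N] := by
    rw [mul_inv_eq_one₀ (pow_ne_zero _ h0), hζ.eq_orderOf]
    exact (isOfFinOrder_iff_pow_eq_one.2 ⟨N, Nat.pos_of_ne_zero hN, hζ.pow_eq_one⟩).pow_eq_pow_iff_modEq
  rw [Finset.sum_congr rfl fun i _ => e i]
  split_ifs with h
  · simp [h2.2 h]
  · have h3 := mul_geom_sum (ζ ^ a * (ζ ^ b)⁻¹) N
    rwa [mul_pow, inv_pow, ← pow_mul, ← pow_mul, mul_comm a, mul_comm b, pow_mul, pow_mul,
      hζ.pow_eq_one, one_pow, one_pow, inv_one, mul_one, sub_self, mul_eq_zero,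
      or_iff_right (sub_ne_zero.2 fun h' => h (h2.1 h'))] at h3

open H32 in
/-- the inner products of the Galois conjugates -/
theorem inner_gal [Fintype F] {M : Ideal AlgInt} [M.IsMaximal] {p : ℕ} (hM : IsPModular p M)
    [Algebra F (Res M)] (V : Type v) [AddCommGroup V] [Module F V] [Finite V] [Nontrivial V]
    [Fintype (End F V)ˣ] (τ τ' : ℂ →+* ℂ) {a b : ℕ}
    (ha : ∀ z : ℂ, z ^ (Fintype.card F ^ finrank F V - 1) = 1 → τ z = z ^ a)
    (hb : ∀ z : ℂ, z ^ (Fintype.card F ^ finrank F V - 1) = 1 → τ' z = z ^ b) :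
    classInner (fun g : (End F V)ˣ => τ (sF (bet F (teich (M := M) p)) (g : End F V) ⊤))
      (fun g : (End F V)ˣ => τ' (sF (bet F (teich (M := M) p)) (g : End F V) ⊤)) =
      ((Finset.range (finrank F V)).filter fun j =>
        a ≡ Fintype.card F ^ j * b [MOD Fintype.card F ^ finrank F V - 1]).card := by
  classical
  have := Fintype.ofFinite (End F V)
  have := Fact.mk hM.1
  have := res_charP hM
  have hn : finrank F V ≠ 0 := Module.finrank_pos.ne'
  have hq : 1 < Fintype.card F ^ finrank F V := Nat.one_lt_pow hn Fintype.one_lt_card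
  set N := Fintype.card F ^ finrank F V - 1 with hN
  have hN0 : N ≠ 0 := by omega
  have hp : ¬ p ∣ N := by
    have : CharP F p := (algebraMap F (Res M)).charP (algebraMap F (Res M)).injective p
    obtain ⟨m, -, hm⟩ := FiniteField.card F p
    intro h
    have h1 : p ∣ Fintype.card F ^ finrank F V :=
      dvd_pow (hm ▸ dvd_pow_self p m.ne_zero) hn
    exact hM.1.one_lt.ne' (Nat.dvd_one.1 ((Nat.dvd_sub_iff_right hq.le h1).1 h))
  have hζ := Complex.isPrimitiveRoot_exp N hN0
  set ζ := Complex.exp (2 * Real.pi * Complex.I / N)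
  have hz : ∀ j, (ζ ^ j) ^ N = 1 := fun j => by
    rw [← pow_mul, mul_comm, pow_mul, hζ.pow_eq_one, one_pow]
  have hzR : ∀ j, ζ ^ j ∈ locRing M := fun j => mem_locRing_of_pow_eq_one hN0 (hz j)
  have key := inner_formula (F := F) (V := V) (fun x => τ (teich (M := M) p x))
    (fun x => τ' (teich (M := M) p x)) ((Finset.range N).image fun i => redC M (ζ ^ i)) fun x => by
      rw [Finset.mem_image]
      constructor
      · rintro ⟨i, -, rfl⟩
        rw [← redC_pow (hzR i), hz, redC_one]
      · intro hx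
        obtain ⟨ε, h1, rfl⟩ := exists_lift_of_pow_eq_one hN0 hx
        have : NeZero N := ⟨hN0⟩
        obtain ⟨i, hi, rfl⟩ := hζ.eq_pow_of_pow_eq_one h1
        exact ⟨i, Finset.mem_range.2 hi, rfl⟩
  rw [Finset.sum_image fun i hi j hj e => by
    have := congrArg (teich p) e
    rw [teich_redC hM hp (hz _), teich_redC hM hp (hz _)] at this
    exact hζ.pow_inj (Finset.mem_range.1 hi) (Finset.mem_range.1 hj) this] at key
  have e1 : ∀ (σ : ℂ →+* ℂ), (bet F fun x => σ (teich (M := M) p x)) =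
      fun f => σ (bet F (teich (M := M) p) f) := fun σ => funext (bet_ringHom F σ _)
  have e2 : (Nat.card V : ℂ) - 1 = N := by
    rw [Module.natCard_eq_pow_finrank (K := F), Nat.card_eq_fintype_card, hN, Nat.cast_sub hq.le,
      Nat.cast_one]
  have e3 : Nat.card (V ≃ₗ[F] V) = Nat.card (End F V)ˣ :=
    (Nat.card_congr (LinearMap.GeneralLinearGroup.generalLinearEquiv F V).toEquiv).symm
  simp only [e1, sF_ringHom, ← sum_units, e2, e3, Finset.mul_sum (Finset.range (finrank F V))] at key
  rw [Finset.sum_comm, Finset.sum_congr rfl fun j _ => (Finset.sum_congr rfl fun i _ => by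
    rw [← redC_pow (hzR i), ← pow_mul, teich_redC hM hp (hz _), teich_redC hM hp (hz _),
      ha _ (hz _), hb _ (hz _), pow_mul, ← pow_mul (ζ ^ i)]).trans
      (sum_root_pow hζ hN0 a (Fintype.card F ^ j * b)), ← Finset.sum_filter, Finset.sum_const,
      nsmul_eq_mul, ← mul_assoc, mul_comm _ (N : ℂ)] at key
  rw [classInner, mul_left_cancel₀ (Nat.cast_ne_zero.2 hN0) key, ← mul_assoc,
    inv_mul_cancel₀ (H6.card_ne_zero_complex _), one_mul]

end Cfsg.Agent.H65.Cu
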